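import Mathlib

/-!
# Arithmetic for Hall subgroups of symmetric and alternating groups

* `exists_prime_dvd_choose`: for `2 ≤ a ≤ b`, `(a, b) ≠ (3, 4)`, some prime `≤ b` divides
  `C(a + b, a)`.
* `stepA`, `stepB`: the numeric core of the intransitive and imprimitive cases of the classification
  of the Hall subgroups.
-/

namespace Cfsg.Agent.Lib.Perm.HallAlt

/-- The shapes of the exceptional sets of primes. -/
def Shape (n : ℕ) (π : Set ℕ) : Prop :=
  (n.Prime ∧ ∀ r : ℕ, r.Prime → r ≤ n → (r ∈ π ↔ r < n)) ∨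
  ((n = 7 ∨ n = 8) ∧ ∀ r : ℕ, r.Prime → r ≤ n → (r ∈ π ↔ (r = 2 ∨ r = 3)))

/-- Two distinct primes of `π` are at most `n`. -/
def Two (n : ℕ) (π : Set ℕ) : Prop :=
  ∃ r s : ℕ, r.Prime ∧ s.Prime ∧ r ≠ s ∧ r ∈ π ∧ s ∈ π ∧ r ≤ n ∧ s ≤ n

/-- A prime outside `π` is at most `n`. -/
def Non (n : ℕ) (π : Set ℕ) : Prop :=
  ∃ r : ℕ, r.Prime ∧ r ≤ n ∧ r ∉ π

/-- Key number-theoretic lemma. -/
theorem exists_prime_dvd_choose {a b : ℕ} (ha : 2 ≤ a) (hab : a ≤ b) (hne : ¬(a = 3 ∧ b = 4)) :
    ∃ p : ℕ, p.Prime ∧ p ≤ b ∧ p ∣ (a + b).choose a := by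
  by_contra hcon
  push Not at hcon
  set G := (a + b).choose a with hG
  have hcop : ∀ x : ℕ, (∀ p : ℕ, p.Prime → p ∣ x → p ≤ b) → Nat.Coprime x G := by
    intro x hx
    apply Nat.Coprime.symm
    apply Nat.coprime_of_dvd
    intro p hp hpG hpx
    exact hcon p hp (hx p hp hpx) hpG
  -- the trivial case `a = b`
  have hlt : a < b := by
    rcases eq_or_lt_of_le hab with rfl | h
    · have := Nat.two_dvd_centralBinom_of_one_le (n := a) (by omega)
      rw [Nat.centralBinom_eq_two_mul_choose, two_mul] at this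
      exact absurd this (hcon 2 Nat.prime_two (by omega))
    · exact h
  have hle_of : ∀ x : ℕ, 0 < x → x ≤ b → (∀ p : ℕ, p.Prime → p ∣ x → p ≤ b) := by
    intro x h hx p hp hpx
    exact (Nat.le_of_dvd h hpx).trans hx
  -- identities
  have hb3 : 3 ≤ b := by omega
  have hU1 : (a + b).choose (a + 1) * (a + 1) = G * b := by
    have := Nat.choose_succ_right_eq (a + b) a
    rwa [show a + b - a = b by omega] at this
  have hU2 : (a + b).choose (a + 2) * (a + 2) = (a + b).choose (a + 1) * (b - 1) := by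
    have := Nat.choose_succ_right_eq (a + b) (a + 1)
    rwa [show a + b - (a + 1) = b - 1 by omega] at this
  have hD1 : G * a = (a + b).choose (a - 1) * (b + 1) := by
    have := Nat.choose_succ_right_eq (a + b) (a - 1)
    rwa [show a - 1 + 1 = a by omega, show a + b - (a - 1) = b + 1 by omega] at this
  have hD2 : (a + b).choose (a - 1) * (a - 1) = (a + b).choose (a - 2) * (b + 2) := by
    have := Nat.choose_succ_right_eq (a + b) (a - 2)
    rwa [show a - 2 + 1 = a - 1 by omega, show a + b - (a - 2) = b + 2 by omega] at this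
  -- (i) `a + 1 ∣ b`
  have hdvd1 : a + 1 ∣ b := by
    have hc := hcop (a + 1) (hle_of _ (by omega) (by omega))
    exact hc.dvd_of_dvd_mul_left ⟨_, by rw [← hU1, mul_comm]⟩
  obtain ⟨c, hc⟩ := hdvd1
  have hc1 : 1 ≤ c := by
    rcases Nat.eq_zero_or_pos c with rfl | h
    · simp at hc; omega
    · exact h
  -- (ii) `b + 1` is prime
  have hprime : (b + 1).Prime := by
    by_contra hnp
    have hc' := hcop (b + 1) (by
      intro p hp hpx
      have h1 := Nat.le_of_dvd (by omega) hpx
      rcases eq_or_lt_of_le h1 with rfl | h2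
      · exact absurd hp hnp
      · omega)
    have := hc'.dvd_of_dvd_mul_left (m := G) (n := a) ⟨_, by rw [hD1, mul_comm]⟩
    have := Nat.le_of_dvd (by omega) this
    omega
  -- (iii) `b + 2 ∣ a (a - 1)`
  have hodd : (b + 1) % 2 = 1 := by
    rcases hprime.eq_two_or_odd with h | h <;> omega
  obtain ⟨d, hd⟩ : ∃ d, b + 2 = 2 * d := ⟨(b + 2) / 2, by omega⟩
  have hdvd2 : b + 2 ∣ a * (a - 1) := by
    have hc' := hcop (b + 2) (by
      intro p hp hpx
      rw [hd] at hpx
      rcases (Nat.Prime.dvd_mul hp).1 hpx with h | h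
      · have := Nat.le_of_dvd (by omega) h
        omega
      · have := Nat.le_of_dvd (by omega) h
        omega)
    apply hc'.dvd_of_dvd_mul_left (m := G)
    refine ⟨(a + b).choose (a - 2) * (b + 1), ?_⟩
    calc G * (a * (a - 1)) = (G * a) * (a - 1) := by ring
      _ = (a + b).choose (a - 1) * (b + 1) * (a - 1) := by rw [hD1]
      _ = ((a + b).choose (a - 1) * (a - 1)) * (b + 1) := by ring
      _ = _ := by rw [hD2]; ring
  obtain ⟨k, hk⟩ := hdvd2
  obtain ⟨a', rfl⟩ : ∃ a', a = a' + 2 := ⟨a - 2, by omega⟩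
  have hk' : (a' + 3) * a' + 2 = (a' + 3) * (c * k) + 2 * k := by
    have h1 : (a' + 2) * (a' + 2 - 1) = (a' + 3) * a' + 2 := by
      rw [show a' + 2 - 1 = a' + 1 by omega]; ring
    rw [h1, hc] at hk
    rw [hk]
    ring
  have hk1 : 1 ≤ k := by
    rcases Nat.eq_zero_or_pos k with rfl | h
    · simp at hk'
    · exact h
  have hcases : c = 1 ∨ c = a' := by
    rcases eq_or_lt_of_le hk1 with rfl | hk2
    · right
      have : (a' + 3) * a' = (a' + 3) * c := by
        have : (a' + 3) * (c * 1) = (a' + 3) * c := by ring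
        omega
      exact (Nat.eq_of_mul_eq_mul_left (by omega) this).symm
    · left
      by_contra hc2
      have hc2' : 2 ≤ c := by omega
      have h1 : c * k < a' := by
        by_contra hle
        have hle' : a' ≤ c * k := by omega
        have := Nat.mul_le_mul_left (a' + 3) hle'
        omega
      have h2 : (a' + 3) * (c * k + 1) ≤ (a' + 3) * a' := Nat.mul_le_mul_left _ h1
      have h3 : (a' + 3) * (c * k + 1) = (a' + 3) * (c * k) + (a' + 3) := by ring
      have h4 : 2 * k ≤ c * k := Nat.mul_le_mul_right _ hc2'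
      omega
  rcases hcases with rfl | rfl
  · -- `b = a + 1`
    have hb : b = a' + 3 := by omega
    subst hb
    rcases Nat.lt_or_ge a' 2 with h | h
    · interval_cases a'
      · exact absurd hprime (by norm_num)
      · exact hne ⟨rfl, rfl⟩
    · obtain ⟨e, rfl⟩ : ∃ e, a' = e + 2 := ⟨a' - 2, by omega⟩
      have h12 : e + 7 ∣ 12 := by
        have h1 : (e + 2 + 2) * (e + 2 + 2 - 1) = (e + 7) * e + 12 := by
          rw [show e + 2 + 2 - 1 = e + 3 by omega]; ring
        rw [h1, show e + 2 + 3 + 2 = e + 7 by ring] at hk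
        exact (Nat.dvd_add_right (Dvd.intro _ rfl)).1 ⟨k, hk⟩
      have hle := Nat.le_of_dvd (by norm_num) h12
      have he : e = 5 := by
        have : e ≤ 5 := by omega
        interval_cases e <;> first | rfl | (exfalso; revert h12; decide)
      subst he
      exact hcon 2 Nat.prime_two (by omega) (by norm_num [hG, Nat.choose])
  · -- `c = a - 2`
    have hc2 : 1 ≤ c := hc1
    rcases eq_or_lt_of_le hc2 with rfl | hc3
    · -- `a = 3`, `b = 4`
      exact hne ⟨rfl, by omega⟩
    obtain ⟨e, rfl⟩ : ∃ e, c = e + 1 := ⟨c - 1, by omega⟩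
    have hb : b = (e + 5) * e + 4 := by rw [hc]; ring
    have he1 : 1 ≤ e := by omega
    have hcoprime := hcop (e + 1 + 2 + 2) (hle_of _ (by omega) (by nlinarith))
    have hb1 : b - 1 = (e + 5) * e + 3 := by omega
    have hdv : e + 5 ∣ b * (b - 1) := by
      have h2 : e + 1 + 2 + 2 ∣ G * (b * (b - 1)) := by
        refine ⟨(e + 1 + 2 + b).choose (e + 1 + 2 + 2) * (e + 1 + 2 + 1), ?_⟩
        calc G * (b * (b - 1)) = (G * b) * (b - 1) := by ring
          _ = _ := by
            rw [← hU1]
            have : (e + 1 + 2 + b).choose (e + 1 + 2 + 1) * (b - 1) =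
              (e + 1 + 2 + b).choose (e + 1 + 2 + 2) * (e + 1 + 2 + 2) := hU2.symm
            calc _ = ((e + 1 + 2 + b).choose (e + 1 + 2 + 1) * (b - 1)) * (e + 1 + 2 + 1) := by ring
              _ = _ := by rw [this]; ring
      exact hcoprime.dvd_of_dvd_mul_left h2
    have h12 : e + 5 ∣ 12 := by
      have h1 : b * (b - 1) = (e + 5) * ((e + 5) * e ^ 2 + 7 * e) + 12 := by
        rw [hb1, hb]; ring
      rw [h1] at hdv
      exact (Nat.dvd_add_right (Dvd.intro _ rfl)).1 hdv
    have hle := Nat.le_of_dvd (by norm_num) h12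
    have he : e = 1 ∨ e = 7 := by
      have : e ≤ 7 := by omega
      interval_cases e <;> first | (left; rfl) | (right; rfl) | (exfalso; revert h12; decide)
    rcases he with rfl | rfl
    · subst hb
      exact hcon 7 (by norm_num) (by norm_num) (by norm_num [hG, Nat.choose])
    · subst hb
      exact hcon 2 Nat.prime_two (by norm_num) (by norm_num [hG, Nat.choose])

/-- A prime `b` does not divide `C(a + b, a)` for `a < b`. -/
theorem prime_not_dvd_choose {a b : ℕ} (hb : b.Prime) (ha : a < b) (ha0 : 0 < a) :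
    ¬ b ∣ (a + b).choose a := by
  haveI : Fact b.Prime := ⟨hb⟩
  have h := @Choose.choose_modEq_choose_mod_mul_choose_div_nat (a + b) a b _
  intro hdvd
  have h1 : (a + b) % b = a := by
    rw [Nat.add_mod_right, Nat.mod_eq_of_lt ha]
  have h2 : a % b = a := Nat.mod_eq_of_lt ha
  have h3 : a / b = 0 := Nat.div_eq_of_lt ha
  rw [h1, h2, h3, Nat.choose_self, Nat.choose_zero_right, one_mul] at h
  have h4 : (a + b).choose a ≡ 0 [MOD b] := (Nat.modEq_zero_iff_dvd).2 hdvd
  have h5 : 1 ≡ 0 [MOD b] := h.symm.trans h4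
  have h6 : b ∣ 1 := (Nat.modEq_zero_iff_dvd).1 h5
  exact hb.one_lt.ne' (Nat.dvd_one.1 h6)

/-- Numeric core of the intransitive case. -/
theorem stepA {a b : ℕ} {π : Set ℕ} (ha : 1 ≤ a) (hab : a ≤ b)
    (hC : ∀ p : ℕ, p.Prime → p ∈ π → ¬ p ∣ (a + b).choose a)
    (h2 : Two (a + b) π) (hN : Non (a + b) π)
    (IH : Two b π → Non b π → Shape b π) :
    (a = 1 ∧ (a + b).Prime ∧ ∀ r : ℕ, r.Prime → r ≤ a + b → (r ∈ π ↔ r < a + b)) ∨
    (a = 3 ∧ b = 4 ∧ ∀ r : ℕ, r.Prime → r ≤ a + b → (r ∈ π ↔ (r = 2 ∨ r = 3))) := by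
  have hbig : ∀ q : ℕ, q.Prime → b < q → q ≤ a + b → q ∉ π := by
    intro q hq hbq hqn hmem
    exact hC q hq hmem (hq.dvd_choose_add (by omega) hbq hqn)
  have h2b : Two b π := by
    obtain ⟨r, s, hr, hs, hne, hrπ, hsπ, hrn, hsn⟩ := h2
    refine ⟨r, s, hr, hs, hne, hrπ, hsπ, ?_, ?_⟩
    · by_contra h
      exact hbig r hr (by omega) hrn hrπ
    · by_contra h
      exact hbig s hs (by omega) hsn hsπ
  by_cases hNb : Non b π
  · exfalso
    rcases IH h2b hNb with ⟨hbp, hb⟩ | ⟨hb78, hb⟩
    · -- `b` prime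
      obtain ⟨r, s, hr, hs, hne, hrπ, hsπ, hrn, hsn⟩ := h2b
      have hr' := (hb r hr hrn).1 hrπ
      have hs' := (hb s hs hsn).1 hsπ
      have hb3 : 2 < b := by
        have := hr.two_le
        have := hs.two_le
        omega
      have h2π : 2 ∈ π := (hb 2 Nat.prime_two (by omega)).2 hb3
      rcases eq_or_lt_of_le ha with rfl | ha2
      · apply hC 2 Nat.prime_two h2π
        have hodd : b % 2 = 1 := by
          rcases hbp.eq_two_or_odd with h | h <;> omega
        rw [Nat.choose_one_right]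
        omega
      · rcases eq_or_lt_of_le hab with rfl | hab'
        · apply hC 2 Nat.prime_two h2π
          have := Nat.two_dvd_centralBinom_of_one_le (n := a) (by omega)
          rwa [Nat.centralBinom_eq_two_mul_choose, two_mul] at this
        · obtain ⟨p, hp, hpb, hpd⟩ := exists_prime_dvd_choose (a := a) (b := b) ha2 hab (by
            rintro ⟨rfl, rfl⟩
            norm_num at hbp)
          rcases eq_or_lt_of_le hpb with rfl | hlt
          · exact prime_not_dvd_choose hbp hab' (by omega) hpd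
          · exact hC p hp ((hb p hp hpb).2 hlt) hpd
    · have h2π : 2 ∈ π := (hb 2 Nat.prime_two (by omega)).2 (Or.inl rfl)
      have h3π : 3 ∈ π := (hb 3 Nat.prime_three (by omega)).2 (Or.inr rfl)
      have h2' := hC 2 Nat.prime_two h2π
      have h3' := hC 3 Nat.prime_three h3π
      rcases hb78 with rfl | rfl
      · interval_cases a <;> first | exact h2' (by decide +kernel) | exact h3' (by decide +kernel)
      · interval_cases a <;> first | exact h3' (by decide +kernel) | exact h2' (by decide +kernel)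
  · have hfull : ∀ r : ℕ, r.Prime → r ≤ b → r ∈ π := by
      intro r hr hrb
      by_contra h
      exact hNb ⟨r, hr, hrb, h⟩
    rcases eq_or_lt_of_le ha with rfl | ha2
    · left
      refine ⟨rfl, ?_, ?_⟩
      · by_contra hnp
        have hn2 : 1 + b ≠ 1 := by
          obtain ⟨r, _, hr, _, _, _, _, _, _⟩ := h2
          have := hr.two_le
          omega
        have hp := Nat.minFac_prime hn2
        have hpd := Nat.minFac_dvd (1 + b)
        have hle := Nat.le_of_dvd (by omega) hpd
        have hne : (1 + b).minFac ≠ 1 + b := fun h => hnp (h ▸ hp)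
        apply hC _ hp (hfull _ hp (by omega))
        rwa [Nat.choose_one_right]
      · intro r hr hrn
        constructor
        · intro hm
          by_contra hge
          have : r = 1 + b := by omega
          exact hbig r hr (by omega) hrn hm
        · intro hlt
          exact hfull r hr (by omega)
    · right
      by_cases hne : a = 3 ∧ b = 4
      · obtain ⟨rfl, rfl⟩ := hne
        refine ⟨rfl, rfl, ?_⟩
        intro r hr hrn
        constructor
        · intro hm
          have hr4 : r ≤ 4 := by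
            by_contra hgt
            exact hbig r hr (by omega) hrn hm
          interval_cases r
          · norm_num at hr
          · norm_num at hr
          · simp
          · simp
          · norm_num at hr
        · rintro (rfl | rfl)
          · exact hfull 2 Nat.prime_two (by norm_num)
          · exact hfull 3 Nat.prime_three (by norm_num)
      · exfalso
        obtain ⟨p, hp, hpb, hpd⟩ := exists_prime_dvd_choose ha2 hab hne
        exact hC p hp (hfull p hp hpb) hpd

/-- Numeric core of the imprimitive case. -/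
theorem stepB {k m : ℕ} {π : Set ℕ} (hk : 2 ≤ k) (hm : 2 ≤ m) (hn5 : 5 ≤ k * m)
    (hD : ∀ p : ℕ, p.Prime → p ∈ π → ∀ J : ℕ, p ^ J ≤ k * m → 3 ≤ p ^ J → p ^ J ≤ k ∨ k ∣ p ^ J)
    (hdiv : ∀ p : ℕ, p.Prime → p ∣ k * m → p ∈ π)
    (hC : ∀ p : ℕ, p.Prime → p ∈ π → ¬ p ∣ (k * m - 1).choose (k - 1))
    (h2 : Two (k * m) π)
    (IH : Two k π → Non k π → Shape k π) :
    k * m = 8 ∧ k = 4 ∧ ∀ r : ℕ, r.Prime → r ≤ k * m → (r ∈ π ↔ (r = 2 ∨ r = 3)) := by
  set n := k * m with hn
  -- the maximal power
  have hlog : ∀ p : ℕ, p.Prime → p ≤ n → 1 ≤ Nat.log p n ∧ p ^ Nat.log p n ≤ n ∧ n < p ^ (Nat.log p n + 1)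
      ∧ 3 ≤ p ^ Nat.log p n := by
    intro p hp hpn
    have hn0 : n ≠ 0 := by omega
    have h1 : 1 ≤ Nat.log p n := Nat.log_pos hp.one_lt hpn
    have h3 : n < p ^ (Nat.log p n + 1) := Nat.lt_pow_succ_log_self hp.one_lt n
    refine ⟨h1, Nat.pow_log_le_self p hn0, h3, ?_⟩
    by_contra hlt
    have hpow : p ^ Nat.log p n ≤ 2 := by omega
    have h4 : p ^ 1 ≤ p ^ Nat.log p n := Nat.pow_le_pow_right hp.pos h1
    rw [pow_one] at h4
    have hp2 : p = 2 := by have := hp.two_le; omega
    subst hp2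
    have hl : Nat.log 2 n = 1 := by
      by_contra hne
      have : 2 ≤ Nat.log 2 n := by omega
      have h5 : 2 ^ 2 ≤ 2 ^ Nat.log 2 n := Nat.pow_le_pow_right (by norm_num) this
      omega
    rw [hl] at h3
    omega
  -- a prime divisor of `m`
  obtain ⟨p, hp, hpm⟩ := Nat.exists_prime_and_dvd (n := m) (by omega)
  have hpn : p ∣ n := Dvd.dvd.mul_left hpm k
  have hpπ : p ∈ π := hdiv p hp hpn
  have hpm' : p ≤ m := Nat.le_of_dvd (by omega) hpm
  have hpnle : p ≤ n := Nat.le_of_dvd (by omega) hpn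
  -- `k` is a power of `p`
  obtain ⟨e, he, hke⟩ : ∃ e, e ≤ Nat.log p n ∧ k = p ^ e := by
    obtain ⟨h1, h2', h3, h4⟩ := hlog p hp hpnle
    rcases hD p hp hpπ _ h2' h4 with h | h
    · exfalso
      have : p ^ (Nat.log p n + 1) ≤ k * m := by
        rw [pow_succ, mul_comm]
        calc p * p ^ Nat.log p n ≤ m * k := Nat.mul_le_mul hpm' h
          _ = k * m := mul_comm _ _
      omega
    · exact (Nat.dvd_prime_pow hp).1 h
  have he1 : 1 ≤ e := by
    rcases Nat.eq_zero_or_pos e with rfl | h
    · simp at hke; omega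
    · exact h
  have hpk : p ∣ k := by rw [hke]; exact dvd_pow_self p (by omega)
  have hple : p ≤ k := Nat.le_of_dvd (by omega) hpk
  -- other primes
  have hother : ∀ r : ℕ, r.Prime → r ∈ π → r ≠ p → r ≤ n → r ^ Nat.log r n ≤ k ∧ r ≤ k ∧ m < r := by
    intro r hr hrπ hrp hrn
    obtain ⟨h1, h2', h3, h4⟩ := hlog r hr hrn
    rcases hD r hr hrπ _ h2' h4 with h | h
    · have hrle : r ≤ k := by
        calc r = r ^ 1 := (pow_one r).symm
          _ ≤ r ^ Nat.log r n := Nat.pow_le_pow_right hr.pos h1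
          _ ≤ k := h
      refine ⟨h, hrle, ?_⟩
      by_contra hle
      have hle' : r ≤ m := by omega
      have : r ^ (Nat.log r n + 1) ≤ k * m := by
        rw [pow_succ, mul_comm]
        calc r * r ^ Nat.log r n ≤ m * k := Nat.mul_le_mul hle' h
          _ = k * m := mul_comm _ _
      omega
    · exfalso
      have hpr : p ∣ r ^ Nat.log r n := hpk.trans h
      have := (Nat.prime_dvd_prime_iff_eq hp hr).1 (hp.dvd_of_dvd_pow hpr)
      exact hrp this.symm
  -- a second prime
  obtain ⟨r, hr, hrπ, hrp, hrn⟩ : ∃ r : ℕ, r.Prime ∧ r ∈ π ∧ r ≠ p ∧ r ≤ n := by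
    obtain ⟨r, s, hr, hs, hne, hrπ, hsπ, hrn, hsn⟩ := h2
    by_cases h : r = p
    · exact ⟨s, hs, hsπ, fun h' => hne (h.trans h'.symm), hsn⟩
    · exact ⟨r, hr, hrπ, h, hrn⟩
  obtain ⟨hr1, hrk, hmr⟩ := hother r hr hrπ hrp hrn
  have h2k : Two k π := ⟨p, r, hp, hr, hrp.symm, hpπ, hrπ, hple, hrk⟩
  by_cases hNk : Non k π
  · exfalso
    rcases IH h2k hNk with ⟨hkp, hks⟩ | ⟨hk78, hks⟩
    · have hpk' : p = k := (Nat.prime_dvd_prime_iff_eq hp hkp).1 hpk
      have := (hks p hp hple).1 hpπ
      omega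
    · rcases hk78 with h7 | h8
      · have hp7 : p = 7 := by
          have := (Nat.prime_dvd_prime_iff_eq hp (by norm_num : Nat.Prime 7)).1 (h7 ▸ hpk)
          exact this
        have := (hks p hp hple).1 hpπ
        omega
      · have hp2 : p = 2 := by
          have h1 : p ∣ 2 ^ 3 := by rw [show 2 ^ 3 = 8 by norm_num, ← h8]; exact hpk
          exact (Nat.prime_dvd_prime_iff_eq hp Nat.prime_two).1 (hp.dvd_of_dvd_pow h1)
        have hr3 : r = 3 := by
          have := (hks r hr hrk).1 hrπ
          omega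
        subst hr3
        have hm2 : m = 2 := by omega
        have hD3 := hD 3 Nat.prime_three hrπ 2 (by rw [hn, h8, hm2]; norm_num) (by norm_num)
        rw [h8] at hD3
        rcases hD3 with h | h
        · omega
        · revert h; decide
  · have hfull : ∀ q : ℕ, q.Prime → q ≤ k → q ∈ π := by
      intro q hq hqk
      by_contra h
      exact hNk ⟨q, hq, hqk, h⟩
    have hp2 : p = 2 := by
      by_contra hne
      obtain ⟨_, _, hlt⟩ := hother 2 Nat.prime_two (hfull 2 Nat.prime_two hk) (Ne.symm hne) (by omega)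
      omega
    subst hp2
    have hk3 : 3 ≤ k := by
      have := hr.two_le
      omega
    obtain ⟨_, _, hm3⟩ := hother 3 Nat.prime_three (hfull 3 Nat.prime_three hk3) (by norm_num) (by
      calc 3 ≤ k := hk3
        _ ≤ k * m := Nat.le_mul_of_pos_right _ (by omega))
    have hm2 : m = 2 := by omega
    have hk4 : 4 ≤ k := by
      rcases Nat.lt_or_ge e 2 with h | h
      · have : e = 1 := by omega
        subst this
        simp at hke
        omega
      · have : 2 ^ 2 ≤ 2 ^ e := Nat.pow_le_pow_right (by norm_num) h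
        omega
    have hkey : k = 4 := by
      by_contra hne
      obtain ⟨q, hq, hqk, hqd⟩ := exists_prime_dvd_choose (a := k - 1) (b := k) (by omega) (by omega)
        (by rintro ⟨h1, h2⟩; omega)
      rw [show k - 1 + k = k * m - 1 by rw [hm2]; omega] at hqd
      exact hC q hq (hfull q hq hqk) hqd
    subst hkey
    subst hm2
    refine ⟨by simp [hn], rfl, ?_⟩
    intro q hq hqn
    constructor
    · intro hm
      by_cases hq2 : q = 2
      · exact Or.inl hq2
      · obtain ⟨_, hq4, _⟩ := hother q hq hm hq2 hqn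
        right
        interval_cases q <;> first | rfl | (exfalso; revert hq; norm_num) | exact absurd rfl hq2
    · rintro (rfl | rfl)
      · exact hfull 2 Nat.prime_two (by norm_num)
      · exact hfull 3 Nat.prime_three (by norm_num)

end Cfsg.Agent.Lib.Perm.HallAlt
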