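import Mathlib

/-!
# Hall subgroups of alternating groups: index computations and restriction to an invariant set

`AH π M`: `M ≤ A(α)` is a Hall `π`-subgroup of `A(α)`.
* `setStab`, `W`: the set stabilizer in `Sym(α)` and in `A(α)`.
* `relIndex_W`: `|A(α) : W Γ| = C(|α|, |Γ|)`.
* `img`: the even part of the image on `Γ` of `K ≤ W Γ`, with
  `|A(Γ) : img K Γ| ∣ |W Γ : K|`.
* `exists_conj_le`: a `p`-subgroup is conjugate into a subgroup of index prime to `p`.
-/

namespace Cfsg.Agent.Lib.Perm.HallAlt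

open Equiv Equiv.Perm MulAction
open scoped Pointwise

section Index

variable {G : Type*} [Group G] [Finite G]

theorem relIndex_sup_eq (M N : Subgroup G) [N.Normal] : M.relIndex (M ⊔ N) = M.relIndex N := by
  have h1 := Subgroup.relIndex_mul_relIndex (M ⊓ N) M (M ⊔ N) inf_le_left le_sup_left
  have h2 := Subgroup.relIndex_mul_relIndex (M ⊓ N) N (M ⊔ N) inf_le_right le_sup_right
  rw [Subgroup.inf_relIndex_left] at h1
  rw [Subgroup.inf_relIndex_right, Subgroup.relIndex_sup_right] at h2
  have h3 : N.relIndex M ≠ 0 := Subgroup.index_ne_zero_of_finite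
  rw [← h2, mul_comm] at h1
  exact Nat.eq_of_mul_eq_mul_right (Nat.pos_of_ne_zero h3) h1

theorem relIndex_dvd_of_normal {M N L : Subgroup G} [N.Normal] (hM : M ≤ L) (hN : N ≤ L) :
    M.relIndex N ∣ M.relIndex L := by
  rw [← relIndex_sup_eq M N]
  exact ⟨(M ⊔ N).relIndex L, (Subgroup.relIndex_mul_relIndex M (M ⊔ N) L le_sup_left
    (sup_le hM hN)).symm⟩

/-- A `p`-subgroup is conjugate into a subgroup of index prime to `p`. -/
theorem exists_conj_le {p : ℕ} [Fact p.Prime] {H Q : Subgroup G} (hH : ¬ p ∣ H.index)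
    (hQ : IsPGroup p Q) : ∃ g : G, ∀ w ∈ Q, g * w * g⁻¹ ∈ H := by
  obtain ⟨x, hx⟩ := hQ.nonempty_fixed_point_of_prime_not_dvd_card (G ⧸ H)
    (by rwa [Subgroup.index_eq_card] at hH) 
  obtain ⟨g, rfl⟩ := QuotientGroup.mk_surjective x
  refine ⟨g⁻¹, fun w hw => ?_⟩
  have h1 : (⟨w, hw⟩ : Q) • (g : G ⧸ H) = (g : G ⧸ H) := hx ⟨w, hw⟩
  have h2 : ((w * g : G) : G ⧸ H) = (g : G ⧸ H) := h1
  rw [QuotientGroup.eq] at h2
  simpa [mul_assoc] using H.inv_mem h2

end Index

variable {α : Type*} [Fintype α] [DecidableEq α]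

/-- A `Fintype` structure on subsets, needed to speak of the alternating group of a subset. -/
noncomputable scoped instance instFintypeSetHall (Γ : Set α) : Fintype Γ := Fintype.ofFinite Γ

/-- The stabilizer of a set. -/
def setStab (Γ : Set α) : Subgroup (Perm α) where
  carrier := {g | ∀ x, g x ∈ Γ ↔ x ∈ Γ}
  one_mem' := fun _ => Iff.rfl
  mul_mem' := fun {a b} ha hb x => by
    rw [Perm.mul_apply]
    exact (ha _).trans (hb _)
  inv_mem' := fun {a} ha x => by
    have := ha (a⁻¹ x)
    have h2 : a (a⁻¹ x) = x := by simp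
    rw [h2] at this
    exact this.symm

theorem mem_setStab {Γ : Set α} {g : Perm α} : g ∈ setStab Γ ↔ ∀ x, g x ∈ Γ ↔ x ∈ Γ := Iff.rfl

/-- Restriction to an invariant set. -/
def restr (Γ : Set α) : setStab Γ →* Perm Γ where
  toFun g := (g : Perm α).subtypePerm (g.2)
  map_one' := by ext y; rfl
  map_mul' a b := by ext y; rfl

@[simp] theorem restr_apply (Γ : Set α) (g : setStab Γ) (y : Γ) :
    ((restr Γ g y : Γ) : α) = (g : Perm α) y := rfl

/-- The even part of the set stabilizer. -/
def W (Γ : Set α) : Subgroup (Perm α) := setStab Γ ⊓ alternatingGroup α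

theorem W_le_stab (Γ : Set α) : W Γ ≤ setStab Γ := inf_le_left
theorem W_le_alt (Γ : Set α) : W Γ ≤ alternatingGroup α := inf_le_right

/-- Restriction on the even part. -/
def resW (Γ : Set α) : W Γ →* Perm Γ := (restr Γ).comp (Subgroup.inclusion (W_le_stab Γ))

@[simp] theorem resW_apply (Γ : Set α) (g : W Γ) (y : Γ) :
    ((resW Γ g y : Γ) : α) = (g : Perm α) y := rfl

theorem alt_le_range (Γ : Set α) : alternatingGroup Γ ≤ (resW Γ).range := by
  classical
  intro h hh
  have h1 : ofSubtype h ∈ setStab Γ := by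
    intro x
    by_cases hx : x ∈ Γ
    · simp only [hx, iff_true]
      rw [ofSubtype_apply_of_mem h hx]
      exact (h ⟨x, hx⟩).2
    · simp only [hx, iff_false]
      rw [ofSubtype_apply_of_not_mem h hx]
      exact hx
  have h2 : ofSubtype h ∈ alternatingGroup α := by
    rw [mem_alternatingGroup, sign_ofSubtype]
    exact hh
  refine ⟨⟨ofSubtype h, h1, h2⟩, ?_⟩
  ext y
  rw [resW_apply]
  change ofSubtype h y = _
  rw [ofSubtype_apply_of_mem h y.2]

/-- The even part of the image on `Γ`. -/
noncomputable def img (K : Subgroup (Perm α)) (Γ : Set α) : Subgroup (Perm Γ) :=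
  (K.subgroupOf (W Γ)).map (resW Γ) ⊓ alternatingGroup Γ

theorem img_relIndex_dvd (K : Subgroup (Perm α)) (Γ : Set α) :
    (img K Γ).relIndex (alternatingGroup Γ) ∣ K.relIndex (W Γ) := by
  classical
  set K₁ := K.subgroupOf (W Γ) with hK₁
  set K₂ := K₁.map (resW Γ) with hK₂
  have hmain : K₂.relIndex (resW Γ).range = (K₁ ⊔ (resW Γ).ker).index := by
    have h1 := Subgroup.relIndex_mul_index (H := K₂) (K := (resW Γ).range)
      (Subgroup.map_le_range _ _)
    have h2 := Subgroup.index_map (H := K₁) (resW Γ)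
    rw [← hK₂, ← h1] at h2
    exact Nat.eq_of_mul_eq_mul_right (Nat.pos_of_ne_zero Subgroup.index_ne_zero_of_finite) h2
  have h1 : (img K Γ).relIndex (alternatingGroup Γ) = K₂.relIndex (alternatingGroup Γ) :=
    Subgroup.inf_relIndex_right _ _
  rw [h1]
  have h2 : K₂.relIndex (alternatingGroup Γ) ∣ K₂.relIndex (resW Γ).range :=
    relIndex_dvd_of_normal (Subgroup.map_le_range _ _) (alt_le_range Γ)
  rw [hmain] at h2
  exact h2.trans (Subgroup.index_dvd_of_le le_sup_left)

theorem card_img_dvd {K : Subgroup (Perm α)} {Γ : Set α} (hK : K ≤ W Γ) :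
    Nat.card (img K Γ) ∣ Nat.card K := by
  have h1 : Nat.card (img K Γ) ∣ Nat.card ((K.subgroupOf (W Γ)).map (resW Γ)) :=
    Subgroup.card_dvd_of_le inf_le_left
  refine h1.trans ((Subgroup.card_map_dvd _ _).trans ?_)
  rw [Nat.card_congr (Subgroup.subgroupOfEquivOfLe hK).toEquiv]

/-- Hall `π`-subgroups of the alternating group. -/
structure AH (π : Set ℕ) (M : Subgroup (Perm α)) : Prop where
  le : M ≤ alternatingGroup α
  pi : ∀ p : ℕ, p.Prime → p ∣ Nat.card M → p ∈ π
  idx : ∀ p : ℕ, p.Prime → p ∈ π → ¬ p ∣ M.relIndex (alternatingGroup α)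

variable {π : Set ℕ} {M : Subgroup (Perm α)}

/-- Restriction of a Hall subgroup. -/
theorem AH.img {K : Subgroup (Perm α)} {Γ : Set α} (hM : AH π M) (hKM : K ≤ M) (hK : K ≤ W Γ)
    (hidx : ∀ p : ℕ, p.Prime → p ∈ π → ¬ p ∣ K.relIndex (W Γ)) : AH π (HallAlt.img K Γ) := by
  refine ⟨inf_le_right, fun p hp hd => hM.pi p hp ?_, fun p hp hπ hd => hidx p hp hπ
    (hd.trans (img_relIndex_dvd K Γ))⟩
  exact hd.trans ((card_img_dvd hK).trans (Subgroup.card_dvd_of_le hKM))

/-- Conjugating `p`-subgroups of the alternating group. -/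
theorem AH.exists_conj (hM : AH π M) {p : ℕ} (hp : p.Prime) (hπ : p ∈ π) {E : Subgroup (Perm α)}
    (hEA : E ≤ alternatingGroup α) (hE : IsPGroup p E) :
    ∃ g ∈ alternatingGroup α, ∀ w ∈ E, g * w * g⁻¹ ∈ M := by
  haveI : Fact p.Prime := ⟨hp⟩
  have h1 : IsPGroup p (E.subgroupOf (alternatingGroup α)) := hE.comap_subtype
  obtain ⟨g, hg⟩ := exists_conj_le (H := M.subgroupOf (alternatingGroup α))
    (hM.idx p hp hπ) h1
  refine ⟨g.1, g.2, fun w hw => ?_⟩
  have := hg ⟨w, hEA hw⟩ (Subgroup.mem_subgroupOf.mpr hw)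
  exact Subgroup.mem_subgroupOf.mp this

/-- Index of the even set stabilizer. -/
theorem relIndex_W (Γ : Set α) (h3 : 3 ≤ Fintype.card α) :
    (W Γ).relIndex (alternatingGroup α) = (Fintype.card α).choose Γ.ncard := by
  classical
  set k := Γ.ncard with hk
  haveI : IsPretransitive (alternatingGroup α) (Set.powersetCard α k) :=
    Set.powersetCard.isPretransitive_alternatingGroup (by rwa [Nat.card_eq_fintype_card])
  let s : Set.powersetCard α k := ⟨Γ.toFinset, by
    rw [Set.powersetCard.mem_iff, ← Set.ncard_eq_toFinset_card']⟩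
  have h1 : (W Γ).subgroupOf (alternatingGroup α) = stabilizer (alternatingGroup α) s := by
    ext g
    rw [Subgroup.mem_subgroupOf, mem_stabilizer_iff]
    constructor
    · intro hg
      apply Subtype.ext
      have h0 : ((g • s : Set.powersetCard α k) : Finset α) = g • (s : Finset α) :=
        Set.powersetCard.coe_smul
      rw [h0]
      ext x
      simp only [Finset.mem_smul_finset, s, Set.mem_toFinset]
      constructor
      · rintro ⟨y, hy, rfl⟩
        exact (hg.1 y).2 hy
      · intro hx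
        refine ⟨(g.1)⁻¹ x, ?_, by simp [Subgroup.smul_def, Perm.smul_def]⟩
        have := hg.1 ((g.1)⁻¹ x)
        have h2 : g.1 ((g.1)⁻¹ x) = x := by simp
        rw [h2] at this
        exact this.1 hx
    · intro hg
      refine ⟨fun x => ?_, g.2⟩
      have h0 : ((g • s : Set.powersetCard α k) : Finset α) = g • (s : Finset α) :=
        Set.powersetCard.coe_smul
      have h2 : g • (s : Finset α) = (s : Finset α) := by rw [← h0, hg]
      constructor
      · intro hx
        have h3 : (g.1 x) ∈ (g • (s : Finset α)) := by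
          rw [h2]
          simpa [s] using hx
        rw [Finset.mem_smul_finset] at h3
        obtain ⟨y, hy, hxy⟩ := h3
        have : y = x := g.1.injective hxy
        subst this
        simpa [s] using hy
      · intro hx
        have h3 : (g.1 x) ∈ (g • (s : Finset α)) :=
          Finset.mem_smul_finset.mpr ⟨x, by simpa [s] using hx, rfl⟩
        rw [h2] at h3
        simpa [s] using h3
  rw [Subgroup.relIndex, h1, index_stabilizer, orbit_eq_univ, Set.ncard_univ,
    Set.powersetCard.card, Nat.card_eq_fintype_card]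

end Cfsg.Agent.Lib.Perm.HallAlt
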