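import Mathlib
import Cfsg.Agent.Lib.Perm.HallAlt.Basic
import Cfsg.Agent.Lib.Perm.SylowTwoSym

/-!
# Hall subgroups of alternating groups: blocks

* `AH.exists_piece`: a Hall subgroup for `p` contains a subgroup transitive on a set of size `p ^ J`
  and trivial outside.
* `block_dichotomy`: the size of a block against such a set.
-/

namespace Cfsg.Agent.Lib.Perm.HallAlt

open Equiv Equiv.Perm MulAction
open scoped Pointwise
open Cfsg.Agent.Lib.Perm.SylowTwoSym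

variable {α : Type*} [Fintype α] [DecidableEq α]
variable {π : Set ℕ} {M : Subgroup (Perm α)}

theorem AH.exists_piece (hM : AH π M) {p J : ℕ} (hp : p.Prime) (hπ : p ∈ π)
    (hle : p ^ J ≤ Fintype.card α) (h3 : 3 ≤ p ^ J) :
    ∃ (L : Subgroup (Perm α)) (O : Set α), L ≤ M ∧ O.ncard = p ^ J ∧
      (∀ l ∈ L, ∀ x, x ∉ O → l x = x) ∧ (∀ x ∈ O, ∀ y ∈ O, ∃ l ∈ L, l x = y) := by
  classical
  haveI : Fact p.Prime := ⟨hp⟩
  obtain ⟨O₀', hO₀'⟩ := Finset.exists_subset_card_eq (s := Finset.univ (α := α)) (n := p ^ J)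
    (by rwa [Finset.card_univ])
  set O₀ : Set α := (O₀' : Set α) with hO₀
  have hcardO₀ : O₀.ncard = p ^ J := by rw [hO₀, Set.ncard_coe_finset]; exact hO₀'.2
  have hcardβ : Nat.card O₀ = p ^ J := by rw [Nat.card_coe_set_eq, hcardO₀]
  haveI htrans : IsPretransitive (alternatingGroup O₀) O₀ :=
    alternatingGroup.isPretransitive_of_three_le_card O₀ (by omega)
  let E : Sylow p (alternatingGroup O₀) := default
  have hEtr : ∀ x y : O₀, ∃ h ∈ (E : Subgroup (alternatingGroup O₀)), h • x = y := by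
    intro x y
    refine exists_mem_smul_eq_of_orbit_pow (p := p) (m := J) (E : Subgroup (alternatingGroup O₀))
      E.not_dvd_index x ?_ ?_
    · rw [orbit_eq_univ, Set.ncard_univ, hcardβ]
    · rw [orbit_eq_univ]; trivial
  let φ : alternatingGroup O₀ →* Perm α := (ofSubtype).comp (alternatingGroup O₀).subtype
  let E' : Subgroup (Perm α) := (E : Subgroup (alternatingGroup O₀)).map φ
  have hE'A : E' ≤ alternatingGroup α := by
    rintro _ ⟨h, _, rfl⟩
    rw [mem_alternatingGroup]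
    change sign (ofSubtype h.1) = 1
    rw [sign_ofSubtype]
    exact h.2
  have hE'p : IsPGroup p E' := E.isPGroup'.map φ
  obtain ⟨g, _, hg⟩ := hM.exists_conj hp hπ hE'A hE'p
  refine ⟨E'.map (MulAut.conj g).toMonoidHom, g '' O₀, ?_, ?_, ?_, ?_⟩
  · rintro _ ⟨w, hw, rfl⟩
    exact hg w hw
  · rw [Set.ncard_image_of_injective _ g.injective, hcardO₀]
  · rintro _ ⟨_, ⟨h, _, rfl⟩, rfl⟩ x hx
    have hx' : g⁻¹ x ∉ O₀ := fun hmem => hx ⟨_, hmem, by simp⟩
    have h1 : ((MulAut.conj g).toMonoidHom (φ h)) x = g (ofSubtype h.1 (g⁻¹ x)) := rfl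
    rw [h1, ofSubtype_apply_of_not_mem h.1 hx']
    simp
  · rintro _ ⟨x₀, hx₀, rfl⟩ _ ⟨y₀, hy₀, rfl⟩
    obtain ⟨h, hh, hxy⟩ := hEtr ⟨x₀, hx₀⟩ ⟨y₀, hy₀⟩
    refine ⟨(MulAut.conj g).toMonoidHom (φ h), ⟨φ h, ⟨h, hh, rfl⟩, rfl⟩, ?_⟩
    have h1 : ((MulAut.conj g).toMonoidHom (φ h)) (g x₀) = g (ofSubtype h.1 (g⁻¹ (g x₀))) := rfl
    have h2 : g⁻¹ (g x₀) = x₀ := by simp
    rw [h1, h2, ofSubtype_apply_of_mem h.1 hx₀]
    have h3 : ((h.1 ⟨x₀, hx₀⟩ : O₀) : α) = y₀ := congrArg Subtype.val hxy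
    rw [h3]

/-- A block inside a transitive piece has size dividing that of the piece. -/
theorem ncard_dvd_of_block {L : Subgroup (Perm α)} {O C : Set α}
    (hinv : ∀ l ∈ L, ∀ x ∈ O, l x ∈ O) (htr : ∀ x ∈ O, ∀ y ∈ O, ∃ l ∈ L, l x = y)
    (hCO : C ⊆ O) (hne : C.Nonempty)
    (hbl : ∀ l ∈ L, (∀ x, l x ∈ C ↔ x ∈ C) ∨ (∀ x ∈ C, l x ∉ C)) : C.ncard ∣ O.ncard := by
  classical
  let N : SubMulAction L α :=
    { carrier := O
      smul_mem' := fun l x hx => hinv l.1 l.2 x hx }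
  haveI : IsPretransitive L N := by
    refine ⟨fun x y => ?_⟩
    obtain ⟨l, hl, hxy⟩ := htr x.1 x.2 y.1 y.2
    exact ⟨⟨l, hl⟩, Subtype.ext hxy⟩
  let C' : Set N := Subtype.val ⁻¹' C
  have hb : IsBlock L C' := by
    rw [isBlock_iff_smul_eq_or_disjoint]
    intro l
    rcases hbl l.1 l.2 with h | h
    · left
      ext x
      rw [Set.mem_smul_set_iff_inv_smul_mem]
      have h1 := h ((l.1)⁻¹ x.1)
      have h2 : l.1 ((l.1)⁻¹ x.1) = x.1 := by simp
      rw [h2] at h1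
      exact h1.symm
    · right
      rw [Set.disjoint_left]
      rintro _ ⟨y, hy, rfl⟩ hmem
      exact h y.1 hy hmem
  have hne' : C'.Nonempty := by
    obtain ⟨c, hc⟩ := hne
    exact ⟨⟨c, hCO hc⟩, hc⟩
  have h1 := hb.ncard_dvd_card hne'
  have h2 : Nat.card N = O.ncard := by
    change Nat.card (O : Set α) = _
    rw [Nat.card_coe_set_eq]
  have h3 : C'.ncard = C.ncard := by
    have h4 : Subtype.val '' C' = C := by
      ext x
      constructor
      · rintro ⟨y, hy, rfl⟩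
        exact hy
      · intro hx
        exact ⟨⟨x, hCO hx⟩, hx, rfl⟩
    rw [← h4, Set.ncard_image_of_injective _ Subtype.val_injective]
  rwa [h2, h3] at h1

/-- Dichotomy between a block and a transitive piece. -/
theorem block_dichotomy {L : Subgroup (Perm α)} (hLM : L ≤ M) {O : Set α}
    (hfix : ∀ l ∈ L, ∀ x, x ∉ O → l x = x) (htr : ∀ x ∈ O, ∀ y ∈ O, ∃ l ∈ L, l x = y)
    (hMtr : ∀ x y : α, ∃ m ∈ M, m x = y) {B : Set α} (hB : B.Nonempty)
    (hbl : ∀ m ∈ M, (∀ x, m x ∈ B ↔ x ∈ B) ∨ (∀ x ∈ B, m x ∉ B)) (hO : O.Nonempty) :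
    O.ncard ≤ B.ncard ∨ B.ncard ∣ O.ncard := by
  obtain ⟨x₀, hx₀⟩ := hO
  obtain ⟨b₀, hb₀⟩ := hB
  obtain ⟨m, hm, hmb⟩ := hMtr b₀ x₀
  set C : Set α := m '' B with hC
  have hCcard : C.ncard = B.ncard := Set.ncard_image_of_injective _ m.injective
  have hmemC : ∀ y, y ∈ C ↔ m⁻¹ y ∈ B := by
    intro y
    constructor
    · rintro ⟨z, hz, rfl⟩
      simpa using hz
    · intro h
      exact ⟨_, h, by simp⟩
  have hx₀C : x₀ ∈ C := ⟨b₀, hb₀, hmb⟩
  have hblC : ∀ l ∈ L, (∀ x, l x ∈ C ↔ x ∈ C) ∨ (∀ x ∈ C, l x ∉ C) := by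
    intro l hl
    have hl' : m⁻¹ * l * m ∈ M := M.mul_mem (M.mul_mem (M.inv_mem hm) (hLM hl)) hm
    have hcomp : ∀ y, (m⁻¹ * l * m) (m⁻¹ y) = m⁻¹ (l y) := by
      intro y
      simp [Perm.mul_apply]
    rcases hbl _ hl' with h | h
    · left
      intro x
      rw [hmemC, hmemC, ← hcomp]
      exact h _
    · right
      intro x hx hlx
      rw [hmemC] at hx hlx
      rw [← hcomp] at hlx
      exact h _ hx hlx
  by_cases hsub : C ⊆ O
  · right
    rw [← hCcard]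
    refine ncard_dvd_of_block ?_ htr hsub ⟨x₀, hx₀C⟩ hblC
    intro l hl x hx
    by_contra hlx
    have h1 := hfix l hl _ hlx
    have h2 : l x = x := l.injective h1
    rw [h2] at hlx
    exact hlx hx
  · left
    rw [Set.not_subset] at hsub
    obtain ⟨z, hzC, hzO⟩ := hsub
    rw [← hCcard]
    refine Set.ncard_le_ncard (fun y hy => ?_) (Set.toFinite _)
    obtain ⟨l, hl, rfl⟩ := htr x₀ hx₀ y hy
    rcases hblC l hl with h | h
    · exact (h x₀).2 hx₀C
    · exact absurd (by rw [hfix l hl z hzO]; exact hzC) (h z hzC)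

/-- Mathlib's block condition unpacked. -/
theorem hbl_of_isBlock {B : Set α} (hB : IsBlock M B) :
    ∀ m ∈ M, (∀ x, m x ∈ B ↔ x ∈ B) ∨ (∀ x ∈ B, m x ∉ B) := by
  intro m hm
  rcases (isBlock_iff_smul_eq_or_disjoint.mp hB) ⟨m, hm⟩ with h | h
  · left
    intro x
    constructor
    · intro hx
      rw [← h] at hx
      obtain ⟨y, hy, hxy⟩ := hx
      have : y = x := m.injective hxy
      rwa [← this]
    · intro hx
      rw [← h]
      exact ⟨x, hx, rfl⟩
  · right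
    intro x hx hmx
    rw [Set.disjoint_left] at h
    exact h ⟨x, hx, rfl⟩ hmx

end Cfsg.Agent.Lib.Perm.HallAlt
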