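import Mathlib
import Cfsg.Agent.Lib.Perm.HallAlt.Arith
import Cfsg.Agent.Lib.Perm.HallAlt.Block

/-!
# Hall subgroups of alternating groups: the intransitive and the imprimitive case
-/

namespace Cfsg.Agent.Lib.Perm.HallAlt

open Equiv Equiv.Perm MulAction
open scoped Pointwise

variable {α : Type*} [Fintype α] [DecidableEq α]
variable {π : Set ℕ} {M : Subgroup (Perm α)}

/-- The structural conclusion of the classification. -/
def Struct (π : Set ℕ) (M : Subgroup (Perm α)) : Prop :=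
  ((Fintype.card α).Prime ∧ (∀ r : ℕ, r.Prime → r ≤ Fintype.card α → (r ∈ π ↔ r < Fintype.card α)) ∧
    ∃ x, ∀ m ∈ M, m x = x) ∨
  (Fintype.card α = 7 ∧ (∀ r : ℕ, r.Prime → r ≤ Fintype.card α → (r ∈ π ↔ (r = 2 ∨ r = 3))) ∧
    ∃ Δ : Set α, Δ.ncard = 3 ∧ M ≤ setStab Δ) ∨
  (Fintype.card α = 8 ∧ (∀ r : ℕ, r.Prime → r ≤ Fintype.card α → (r ∈ π ↔ (r = 2 ∨ r = 3))) ∧
    ∃ Δ : Set α, Δ.ncard = 4 ∧ ∀ m ∈ M, (∀ x, m x ∈ Δ ↔ x ∈ Δ) ∨ (∀ x, m x ∈ Δ ↔ x ∉ Δ))

theorem Struct.shape (h : Struct π M) : Shape (Fintype.card α) π := by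
  rcases h with ⟨h1, h2, _⟩ | ⟨h1, h2, _⟩ | ⟨h1, h2, _⟩
  · exact Or.inl ⟨h1, h2⟩
  · exact Or.inr ⟨Or.inl h1, h2⟩
  · exact Or.inr ⟨Or.inr h1, h2⟩

theorem ncard_add_compl (Δ : Set α) : Δ.ncard + Δᶜ.ncard = Fintype.card α := by
  rw [Set.ncard_add_ncard_compl, Nat.card_eq_fintype_card]

theorem setStab_compl (Δ : Set α) : setStab Δᶜ = setStab Δ := by
  ext g
  simp only [mem_setStab, Set.mem_compl_iff, not_iff_not]

/-- The intransitive case. -/
theorem AH.caseA (hM : AH π M) {Δ : Set α} (hinv : M ≤ setStab Δ) (ha : 1 ≤ Δ.ncard)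
    (hab : Δ.ncard ≤ Δᶜ.ncard) (h3 : 3 ≤ Fintype.card α)
    (h2 : Two (Fintype.card α) π) (hN : Non (Fintype.card α) π)
    (IH : ∀ K : Subgroup (Perm (Δᶜ : Set α)), AH π K → Two (Δᶜ : Set α).ncard π →
      Non (Δᶜ : Set α).ncard π → Shape (Δᶜ : Set α).ncard π) : Struct π M := by
  set Γ : Set α := Δᶜ with hΓ
  have hn := ncard_add_compl Δ
  have hMW : M ≤ W Γ := le_inf (by rw [hΓ, setStab_compl]; exact hinv) hM.le
  have hmul := Subgroup.relIndex_mul_relIndex M (W Γ) (alternatingGroup α) hMW (W_le_alt Γ)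
  rw [relIndex_W Γ h3, ← hn, hΓ, ← Nat.choose_symm_add, ← hΓ] at hmul
  have hC : ∀ p : ℕ, p.Prime → p ∈ π → ¬ p ∣ (Δ.ncard + Γ.ncard).choose Δ.ncard := by
    intro p hp hπ hd
    exact hM.idx p hp hπ (hmul ▸ Dvd.dvd.mul_left hd _)
  have hI : ∀ p : ℕ, p.Prime → p ∈ π → ¬ p ∣ M.relIndex (W Γ) := by
    intro p hp hπ hd
    exact hM.idx p hp hπ (hmul ▸ Dvd.dvd.mul_right hd _)
  have hIm := hM.img le_rfl hMW hI
  rw [← hn] at h2 hN
  rcases stepA ha hab hC h2 hN (IH _ hIm) with ⟨h1, hp, hr⟩ | ⟨h1, h4, hr⟩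
  · left
    rw [← hn]
    refine ⟨hp, hr, ?_⟩
    obtain ⟨x, hx⟩ := Set.ncard_eq_one.mp h1
    refine ⟨x, fun m hm => ?_⟩
    have := (hinv hm x)
    rw [hx] at this
    simpa using this
  · right; left
    have h4' : Δᶜ.ncard = 4 := h4
    have hcard : Fintype.card α = 7 := by rw [← hn]; omega
    exact ⟨hcard, by rw [← hn]; exact hr, Δ, h1, hinv⟩

/-- A transitive subgroup has order divisible by the degree. -/
theorem card_dvd_of_transitive (hne : Nonempty α) (hMtr : ∀ x y : α, ∃ m ∈ M, m x = y) :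
    Fintype.card α ∣ Nat.card M := by
  classical
  obtain ⟨a⟩ := hne
  haveI : IsPretransitive M α := ⟨fun x y => by
    obtain ⟨m, hm, hxy⟩ := hMtr x y
    exact ⟨⟨m, hm⟩, hxy⟩⟩
  have h1 := index_stabilizer M a
  rw [orbit_eq_univ, Set.ncard_univ, Nat.card_eq_fintype_card] at h1
  rw [← h1]
  exact Subgroup.index_dvd_card _

/-- The imprimitive case. -/
theorem AH.caseB (hM : AH π M) (hMtr : ∀ x y : α, ∃ m ∈ M, m x = y) {B : Set α} (hB : IsBlock M B)
    (hk2 : 2 ≤ B.ncard) (hkn : B.ncard < Fintype.card α) (h5 : 5 ≤ Fintype.card α)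
    (h2 : Two (Fintype.card α) π)
    (IH : ∀ K : Subgroup (Perm B), AH π K → Two B.ncard π → Non B.ncard π → Shape B.ncard π) :
    Struct π M := by
  classical
  haveI : IsPretransitive M α := ⟨fun x y => by
    obtain ⟨m, hm, hxy⟩ := hMtr x y
    exact ⟨⟨m, hm⟩, hxy⟩⟩
  have hne : B.Nonempty := by
    rw [← Set.ncard_pos]; omega
  have hkm := hB.ncard_block_mul_ncard_orbit_eq hne
  rw [Nat.card_eq_fintype_card] at hkm
  set k := B.ncard with hk
  set m := (orbit M B).ncard with hm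
  have hm2 : 2 ≤ m := by
    by_contra hlt
    have : m = 0 ∨ m = 1 := by omega
    rcases this with h | h <;> rw [h] at hkm <;> omega
  set K : Subgroup (Perm α) := M ⊓ setStab B with hK
  have hKM : K ≤ M := inf_le_left
  have hKW : K ≤ W B := le_inf inf_le_right (hKM.trans hM.le)
  have hrel : K.relIndex M = m := by
    rw [hm, ← index_stabilizer]
    change (K.subgroupOf M).index = _
    congr 1
    ext g
    rw [Subgroup.mem_subgroupOf, mem_stabilizer_iff]
    constructor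
    · rintro ⟨_, hs⟩
      ext x
      rw [Set.mem_smul_set_iff_inv_smul_mem]
      have h1 := hs ((g.1)⁻¹ x)
      have h2' : g.1 ((g.1)⁻¹ x) = x := by simp
      rw [h2'] at h1
      exact h1.symm
    · intro hg
      refine ⟨g.2, fun x => ?_⟩
      constructor
      · intro hx
        rw [← hg] at hx
        obtain ⟨y, hy, hxy⟩ := hx
        have : y = x := g.1.injective hxy
        rwa [← this]
      · intro hx
        rw [← hg]
        exact ⟨x, hx, rfl⟩
  have hchoose : (Fintype.card α).choose k = m * (Fintype.card α - 1).choose (k - 1) := by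
    have hkpos : 0 < k := by omega
    have hnpos : 0 < Fintype.card α := by omega
    obtain ⟨n', hn'⟩ : ∃ n', Fintype.card α = n' + 1 := ⟨Fintype.card α - 1, by omega⟩
    obtain ⟨k', hk'⟩ : ∃ k', k = k' + 1 := ⟨k - 1, by omega⟩
    have h1 := Nat.add_one_mul_choose_eq n' k'
    rw [hn', hk', Nat.add_sub_cancel, Nat.add_sub_cancel]
    rw [hn', hk'] at hkm
    have h3 : (k' + 1) * (n'.succ.choose k'.succ) = (k' + 1) * (m * n'.choose k') := by
      calc (k' + 1) * (n'.succ.choose k'.succ) = n'.succ.choose k'.succ * k'.succ := by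
            rw [mul_comm]
        _ = n'.succ * n'.choose k' := h1.symm
        _ = ((k' + 1) * m) * n'.choose k' := by rw [hkm]
        _ = _ := by ring
    exact Nat.eq_of_mul_eq_mul_left (by omega) h3
  have hmul : K.relIndex (W B) * (Fintype.card α - 1).choose (k - 1) =
      M.relIndex (alternatingGroup α) := by
    have h1 := Subgroup.relIndex_mul_relIndex K (W B) (alternatingGroup α) hKW (W_le_alt B)
    have h2' := Subgroup.relIndex_mul_relIndex K M (alternatingGroup α) hKM hM.le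
    rw [relIndex_W B (by omega), hchoose] at h1
    rw [hrel, ← h1] at h2'
    have h3 : m * (K.relIndex (W B) * (Fintype.card α - 1).choose (k - 1)) =
        m * M.relIndex (alternatingGroup α) := by
      rw [h2']; ring
    exact Nat.eq_of_mul_eq_mul_left (by omega) h3
  have hC : ∀ p : ℕ, p.Prime → p ∈ π → ¬ p ∣ (k * m - 1).choose (k - 1) := by
    intro p hp hπ hd
    rw [hkm] at hd
    exact hM.idx p hp hπ (hmul ▸ Dvd.dvd.mul_left hd _)
  have hI : ∀ p : ℕ, p.Prime → p ∈ π → ¬ p ∣ K.relIndex (W B) := by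
    intro p hp hπ hd
    exact hM.idx p hp hπ (hmul ▸ Dvd.dvd.mul_right hd _)
  have hIm := hM.img hKM hKW hI
  have hbl := hbl_of_isBlock hB
  have hD : ∀ p : ℕ, p.Prime → p ∈ π → ∀ J : ℕ, p ^ J ≤ k * m → 3 ≤ p ^ J →
      p ^ J ≤ k ∨ k ∣ p ^ J := by
    intro p hp hπ J hJ h3
    rw [hkm] at hJ
    obtain ⟨L, O, hLM, hOc, hfix, htr⟩ := hM.exists_piece hp hπ hJ h3
    have hOne : O.Nonempty := by
      rw [← Set.ncard_pos, hOc]; omega
    have := block_dichotomy hLM hfix htr hMtr hne hbl hOne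
    rwa [hOc] at this
  have hdiv : ∀ p : ℕ, p.Prime → p ∣ k * m → p ∈ π := by
    intro p hp hd
    rw [hkm] at hd
    exact hM.pi p hp (hd.trans (card_dvd_of_transitive (Fintype.card_pos_iff.mp (by omega)) hMtr))
  obtain ⟨h8, h4, hr⟩ := stepB hk2 hm2 (by rw [hkm]; exact h5) hD hdiv hC (by rw [hkm]; exact h2)
    (IH _ hIm)
  rw [hkm] at h8 hr
  right; right
  refine ⟨h8, hr, B, h4, fun g hg => ?_⟩
  rcases hbl g hg with h | h
  · exact Or.inl h
  · right
    intro x
    constructor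
    · intro hgx hx
      exact h x hx hgx
    · intro hx
      by_contra hgx
      -- `g` maps `B ∪ {x}` into the complement of `B`
      have hsub : g '' (insert x B) ⊆ Bᶜ := by
        rintro _ ⟨y, hy | hy, rfl⟩
        · rw [hy]; exact hgx
        · exact h y hy
      have hc1 := Set.ncard_le_ncard hsub (Set.toFinite _)
      rw [Set.ncard_image_of_injective _ g.injective, Set.ncard_insert_of_notMem hx (Set.toFinite _)] at hc1
      have hc2 := ncard_add_compl B
      omega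

end Cfsg.Agent.Lib.Perm.HallAlt
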