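import Mathlib
import Cfsg.Agent.Lib.Perm.HallAlt.CaseAB
import Cfsg.Agent.Lib.Perm.SylowDecompB

/-!
# Hall subgroups of alternating groups: the primitive case

A primitive Hall `π`-subgroup of `A(α)` containing two primes of `π` and missing a prime does not
exist.
-/

namespace Cfsg.Agent.Lib.Perm.HallAlt

open Equiv Equiv.Perm MulAction
open scoped Pointwise
open Cfsg.Agent.Lib.Perm.SylowTwoSym Cfsg.Agent.Lib.Perm.SylowDecomp

variable {α : Type*} [Fintype α] [DecidableEq α]
variable {π : Set ℕ} {M : Subgroup (Perm α)}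

theorem three_dvd_orderOf_of_cycle {f : Perm α} {w v u : α} (h1 : f w = v) (h2 : f v = u)
    (h3 : f u = w) (hne : w ≠ v) (hne2 : w ≠ u) : 3 ∣ orderOf f := by
  have h3' : ∀ q : ℕ, (f ^ (3 * q)) w = w := by
    intro q
    induction q with
    | zero => simp
    | succ q ih =>
      rw [show 3 * (q + 1) = 3 + 3 * q by ring, pow_add, Perm.mul_apply, ih]
      simp only [pow_succ, pow_zero, one_mul, Perm.mul_apply, h1, h2, h3]
  have hk : (f ^ orderOf f) w = w := by rw [pow_orderOf_eq_one]; rfl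
  have hdiv := Nat.div_add_mod (orderOf f) 3
  have hlt := Nat.mod_lt (orderOf f) (by norm_num : 3 > 0)
  rw [← hdiv, add_comm, pow_add, Perm.mul_apply, h3'] at hk
  generalize orderOf f % 3 = r at hdiv hlt hk
  interval_cases r
  · exact ⟨_, hdiv.symm⟩
  · exfalso
    rw [pow_one, h1] at hk
    exact hne hk.symm
  · exfalso
    rw [pow_two, Perm.mul_apply, h1, h2] at hk
    exact hne2 hk.symm

theorem two_dvd_orderOf_of_swap {g : Perm α} {x y : α} (hxy : x ≠ y) (h1 : g x = y) (h2 : g y = x) :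
    2 ∣ orderOf g := by
  have h3 : ∀ q : ℕ, (g ^ (2 * q)) x = x := by
    intro q
    induction q with
    | zero => simp
    | succ q ih =>
      rw [show 2 * (q + 1) = 2 + 2 * q by ring, pow_add, Perm.mul_apply, ih]
      simp only [pow_succ, pow_zero, one_mul, Perm.mul_apply, h1, h2]
  have hk : (g ^ orderOf g) x = x := by rw [pow_orderOf_eq_one]; rfl
  by_contra hodd
  obtain ⟨q, hq⟩ : ∃ q, orderOf g = 2 * q + 1 := ⟨orderOf g / 2, by omega⟩
  rw [hq, add_comm, pow_add, Perm.mul_apply, h3, pow_one, h1] at hk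
  exact hxy hk.symm

/-- Existence of cycles of a given length. -/
theorem exists_isCycle {p : ℕ} (hp2 : 2 ≤ p) (hpn : p ≤ Fintype.card α) :
    ∃ c : Perm α, c.IsCycle ∧ c.support.card = p := by
  obtain ⟨s, hs⟩ := Finset.exists_subset_card_eq (s := Finset.univ (α := α)) (n := p)
    (by rwa [Finset.card_univ])
  have hlen : s.toList.length = p := by rw [Finset.length_toList, hs.2]
  refine ⟨s.toList.formPerm, List.isCycle_formPerm s.nodup_toList (by omega), ?_⟩
  rw [List.support_formPerm_of_nodup _ s.nodup_toList, List.toFinset_card_of_nodup s.nodup_toList, hlen]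
  intro x hx
  rw [hx] at hlen
  simp at hlen
  omega

theorem prime_dvd_card_alt (h4 : 4 ≤ Fintype.card α) {t : ℕ} (ht : t.Prime)
    (htn : t ≤ Fintype.card α) : t ∣ Nat.card (alternatingGroup α) := by
  haveI : Nontrivial α := Fintype.one_lt_card_iff_nontrivial.mp (by omega)
  have h1 := two_mul_card_alternatingGroup (α := α)
  rw [Fintype.card_perm] at h1
  rw [Nat.card_eq_fintype_card]
  by_cases h2 : t = 2
  · subst h2
    have h3 : 4 ∣ (Fintype.card α).factorial :=
      (show 4 ∣ Nat.factorial 4 by decide).trans (Nat.factorial_dvd_factorial h4)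
    rw [← h1] at h3
    omega
  · have h3 : t ∣ 2 * Fintype.card (alternatingGroup α) := by
      rw [h1]
      exact (Nat.Prime.dvd_factorial ht).2 htn
    rcases (Nat.Prime.dvd_mul ht).1 h3 with h | h
    · exact absurd ((Nat.prime_dvd_prime_iff_eq ht Nat.prime_two).1 h) h2
    · exact h

/-- `M` does not contain the alternating group if a prime is missing. -/
theorem AH.alt_not_le (hM : AH π M) (h4 : 4 ≤ Fintype.card α) (hN : Non (Fintype.card α) π) :
    ¬ alternatingGroup α ≤ M := by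
  intro hle
  obtain ⟨t, ht, htn, hnot⟩ := hN
  have hEq : M = alternatingGroup α := le_antisymm hM.le hle
  apply hnot
  apply hM.pi t ht
  rw [hEq]
  exact prime_dvd_card_alt h4 ht htn

/-- Odd prime cycles in a Hall subgroup. -/
theorem AH.exists_cycle_mem (hM : AH π M) {p : ℕ} (hp : p.Prime) (hπ : p ∈ π) (h2 : p ≠ 2)
    (hpn : p ≤ Fintype.card α) : ∃ c ∈ M, c.IsCycle ∧ c.support.card = p := by
  haveI : Fact p.Prime := ⟨hp⟩
  obtain ⟨c, hc, hcs⟩ := exists_isCycle (α := α) hp.two_le hpn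
  have hcA : c ∈ alternatingGroup α := by
    rw [mem_alternatingGroup, hc.sign, hcs, (hp.odd_of_ne_two h2).neg_one_pow]
    rfl
  have hEA : Subgroup.zpowers c ≤ alternatingGroup α := (Subgroup.zpowers_le).2 hcA
  have hE : IsPGroup p (Subgroup.zpowers c) := by
    apply IsPGroup.of_card (n := 1)
    rw [Nat.card_zpowers, hc.orderOf, hcs, pow_one]
  obtain ⟨g, _, hg⟩ := hM.exists_conj hp hπ hEA hE
  exact ⟨g * c * g⁻¹, hg c (Subgroup.mem_zpowers c), hc.conj, by rw [card_support_conj]; exact hcs⟩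

/-- If a prime order element is in `M`, its order is in `π`. -/
theorem AH.mem_of_dvd_orderOf (hM : AH π M) {f : Perm α} (hf : f ∈ M) {p : ℕ} (hp : p.Prime)
    (hd : p ∣ orderOf f) : p ∈ π := by
  apply hM.pi p hp
  have h1 : orderOf (⟨f, hf⟩ : M) = orderOf f := Subgroup.orderOf_mk f hf
  rw [← h1] at hd
  exact hd.trans (orderOf_dvd_natCard _)

/-- The primitive case with `3 ∈ π`. -/
theorem AH.caseC_three (hM : AH π M) (hprim : IsPreprimitive M α) (h3 : 3 ∈ π)
    (h4 : 4 ≤ Fintype.card α) (hN : Non (Fintype.card α) π) : False := by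
  obtain ⟨c, hc, _, hcs⟩ := hM.exists_cycle_mem Nat.prime_three h3 (by norm_num) (by omega)
  have h3c : c.IsThreeCycle := card_support_eq_three_iff.mp hcs
  exact hM.alt_not_le h4 hN (alternatingGroup_le_of_isPreprimitive_of_isThreeCycle_mem hprim h3c hc)

/-- The primitive case with `2 ∉ π`. -/
theorem AH.caseC_odd (hM : AH π M) (hprim : IsPreprimitive M α) (h2 : 2 ∉ π)
    (h3 : 3 ≤ Fintype.card α) (hT : Two (Fintype.card α) π) : False := by
  have key : ∀ p : ℕ, p.Prime → p ∈ π → p ≤ Fintype.card α → p = Fintype.card α := by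
    intro p hp hπ hpn
    by_contra hne
    have hne2 : p ≠ 2 := fun h => h2 (h ▸ hπ)
    obtain ⟨c, hc, hcyc, hcs⟩ := hM.exists_cycle_mem hp hπ hne2 hpn
    have hlt : p < Fintype.card α := by omega
    have htr := isPretransitive_of_isCycle_mem hcyc hc
    have hsn : ((c.support : Set α)ᶜ).ncard = (Fintype.card α - p - 1) + 1 := by
      have := ncard_add_compl (c.support : Set α)
      rw [Set.ncard_coe_finset, hcs] at this
      omega
    have hsn' : (Fintype.card α - p - 1) + 2 < Nat.card α := by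
      rw [Nat.card_eq_fintype_card]
      have := hp.two_le
      omega
    have h2tr := hprim.is_two_pretransitive hsn hsn' htr
    rw [is_two_pretransitive_iff] at h2tr
    haveI : Nontrivial α := Fintype.one_lt_card_iff_nontrivial.mp (by omega)
    obtain ⟨x, y, hxy⟩ := exists_pair_ne α
    obtain ⟨g, h1, h1'⟩ := h2tr (a := x) (b := y) (c := y) (d := x) hxy hxy.symm
    exact h2 (hM.mem_of_dvd_orderOf g.2 Nat.prime_two (two_dvd_orderOf_of_swap hxy h1 h1'))
  obtain ⟨r, s, hr, hs, hne, hrπ, hsπ, hrn, hsn⟩ := hT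
  exact hne ((key r hr hrπ hrn).trans (key s hs hsπ hsn).symm)

theorem exists_moved_avoid' {σ : Perm α} (hσ : IsMatching σ) (L : List α)
    (hL : L.length + 1 < Fintype.card α) : ∃ y, y ∉ L ∧ σ y ≠ y := by
  by_cases h : ∃ f, σ f = f
  · obtain ⟨f, hf⟩ := h
    obtain ⟨y, hy⟩ := exists_not_mem_list (f :: L) (by simpa using hL)
    simp only [List.mem_cons, not_or] at hy
    exact ⟨y, hy.2, fun e => hy.1 (hσ.fix _ _ e hf)⟩
  · push Not at h
    obtain ⟨y, hy⟩ := exists_not_mem_list L (by omega)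
    exact ⟨y, hy, h y⟩

/-- A matching from a Sylow `2`-subgroup inside a Hall subgroup. -/
theorem AH.exists_matching (hM : AH π M) (h2 : 2 ∈ π) :
    ∃ σ : Perm α, IsMatching σ ∧ ∀ p q : α, σ p ≠ p → σ q ≠ q → swap p (σ p) * swap q (σ q) ∈ M := by
  let R : Sylow 2 (Perm α) := default
  obtain ⟨σ₀, hσ₀⟩ := exists_matched R
  have hE : IsPGroup 2 (P0 R) := R.isPGroup'.to_le inf_le_left
  obtain ⟨g, _, hg⟩ := hM.exists_conj Nat.prime_two h2 (inf_le_right : P0 R ≤ _) hE
  have hform : ∀ x, (g * σ₀ * g⁻¹) x = g (σ₀ (g⁻¹ x)) := fun x => rfl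
  refine ⟨g * σ₀ * g⁻¹, ⟨fun x => ?_, fun x y hx hy => ?_, fun he x hx => ?_⟩, fun p q hp hq => ?_⟩
  · rw [hform, hform]
    simp [hσ₀.sq]
  · rw [hform] at hx hy
    have hx' : σ₀ (g⁻¹ x) = g⁻¹ x := by
      apply g.injective
      rw [hx]
      simp
    have hy' : σ₀ (g⁻¹ y) = g⁻¹ y := by
      apply g.injective
      rw [hy]
      simp
    have := hσ₀.m.fix _ _ hx' hy'
    exact g⁻¹.injective this
  · rw [hform] at hx
    apply hσ₀.m.even_free he (g⁻¹ x)
    apply g.injective
    rw [hx]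
    simp
  · rw [hform] at hp hq ⊢
    rw [hform]
    have hp' : σ₀ (g⁻¹ p) ≠ g⁻¹ p := by
      intro h
      apply hp
      rw [h]
      simp
    have hq' : σ₀ (g⁻¹ q) ≠ g⁻¹ q := by
      intro h
      apply hq
      rw [h]
      simp
    have h1 := hg _ (hσ₀.two_swaps_mem hp' hq')
    have h2' : g * (swap (g⁻¹ p) (σ₀ (g⁻¹ p)) * swap (g⁻¹ q) (σ₀ (g⁻¹ q))) * g⁻¹ =
        swap p (g (σ₀ (g⁻¹ p))) * swap q (g (σ₀ (g⁻¹ q))) := by
      have e1 := conj_swap g (g⁻¹ p) (σ₀ (g⁻¹ p))
      have e2 := conj_swap g (g⁻¹ q) (σ₀ (g⁻¹ q))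
      have e3 : g (g⁻¹ p) = p := by simp
      have e4 : g (g⁻¹ q) = q := by simp
      rw [e3] at e1
      rw [e4] at e2
      rw [← e1, ← e2]
      group
    rwa [h2'] at h1

/-- The primitive case with `2 ∈ π`, `3 ∉ π`, degree at least `6`. -/
theorem AH.caseC_even (hM : AH π M) (hprim : IsPreprimitive M α) (h2 : 2 ∈ π) (h3 : 3 ∉ π)
    (h6 : 6 ≤ Fintype.card α) : False := by
  obtain ⟨σ, hσ, hmem⟩ := hM.exists_matching h2
  have hsq : ∀ x, σ (σ x) = x := hσ.invol
  obtain ⟨a, _, ha⟩ := exists_moved_avoid' hσ [] (by simp; omega)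
  set B : Set α := {a, σ a} with hB
  have hnb : ¬ IsBlock M B := by
    intro hbl
    rcases hprim.isTrivialBlock_of_isBlock hbl with h | h
    · exact ha (h (by simp [hB]) (by simp [hB]) |>.symm)
    · have h1 : B.ncard = 2 := Set.ncard_pair ha.symm
      rw [h, Set.ncard_univ, Nat.card_eq_fintype_card] at h1
      omega
  rw [isBlock_iff_smul_eq_or_disjoint] at hnb
  push Not at hnb
  obtain ⟨⟨h, hhM⟩, hne, hdis⟩ := hnb
  rw [Set.not_disjoint_iff] at hdis
  obtain ⟨w, ⟨x₁, hx₁, hx₁w⟩, hwB⟩ := hdis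
  have hx₁w' : h x₁ = w := hx₁w
  -- the pair `B` seen from `x₁`, and from `w`
  have hpair1 : B = {x₁, σ x₁} := by
    rcases hx₁ with rfl | hx₁
    · rfl
    · rw [Set.mem_singleton_iff] at hx₁
      rw [hx₁, hsq, hB, Set.pair_comm]
  have hpair2 : B = {w, σ w} := by
    rcases hwB with rfl | hw'
    · rfl
    · rw [Set.mem_singleton_iff] at hw'
      rw [hw', hsq, hB, Set.pair_comm]
  have hmx₁ : σ x₁ ≠ x₁ := by
    rcases hx₁ with rfl | hx₁
    · exact ha
    · rw [Set.mem_singleton_iff] at hx₁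
      rw [hx₁, hsq]
      exact ha.symm
  have hmw : σ w ≠ w := by
    rcases hwB with rfl | hw'
    · exact ha
    · rw [Set.mem_singleton_iff] at hw'
      rw [hw', hsq]
      exact ha.symm
  set u := σ w with hu
  set v := h (σ x₁) with hv
  have hwv : w ≠ v := by
    rw [← hx₁w', hv]
    exact fun e => hmx₁ (h.injective e).symm
  have hvB : v ∉ B := by
    intro hvB
    apply hne
    have hsub : (⟨h, hhM⟩ : M) • B ⊆ B := by
      rintro _ ⟨y, hy, rfl⟩
      rw [hpair1] at hy
      rcases hy with rfl | hy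
      · change h _ ∈ B
        rw [hx₁w']
        exact hwB
      · rw [Set.mem_singleton_iff] at hy
        subst hy
        exact hvB
    refine Set.eq_of_subset_of_ncard_le hsub ?_ (Set.toFinite _)
    rw [Set.ncard_smul_set]
  have hvw : v ≠ w := hwv.symm
  have hvu : v ≠ u := by
    intro e
    apply hvB
    rw [hpair2, e]
    exact Or.inr rfl
  have huw : w ≠ u := hmw.symm
  -- choice of `c`
  obtain ⟨c, hc, hcm⟩ := exists_moved_avoid' hσ [w, u, v, σ v] (by simp; omega)
  simp only [List.mem_cons, List.not_mem_nil, or_false, not_or] at hc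
  obtain ⟨hcw, hcu, hcv, hcσv⟩ := hc
  have hσcw : σ c ≠ w := fun e => hcu (by rw [hu, ← e, hsq])
  have hσcu : σ c ≠ u := fun e => hcw (by
    have := congrArg σ e
    rw [hsq, hu, hsq] at this
    exact this)
  have hσcv : σ c ≠ v := fun e => hcσv (by rw [← e, hsq])
  -- choice of `d`
  obtain ⟨d, hd, hdm⟩ := exists_moved_avoid' hσ [x₁, σ x₁, h⁻¹ u, σ (h⁻¹ u)] (by simp; omega)
  simp only [List.mem_cons, List.not_mem_nil, or_false, not_or] at hd
  obtain ⟨hdx₁, hdx₂, hdu, hdu'⟩ := hd
  have hσdx₁ : σ d ≠ x₁ := fun e => hdx₂ (by rw [← e, hsq])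
  have hσdx₂ : σ d ≠ σ x₁ := fun e => hdx₁ (σ.injective e)
  have hσdu : σ d ≠ h⁻¹ u := fun e => hdu' (by rw [← e, hsq])
  have e₁w : h d ≠ w := fun e => hdx₁ (h.injective (by rw [e, hx₁w']))
  have e₁v : h d ≠ v := fun e => hdx₂ (h.injective e)
  have e₁u : h d ≠ u := fun e => hdu (by rw [← e]; simp)
  have e₂w : h (σ d) ≠ w := fun e => hσdx₁ (h.injective (by rw [e, hx₁w']))
  have e₂v : h (σ d) ≠ v := fun e => hσdx₂ (h.injective e)
  have e₂u : h (σ d) ≠ u := fun e => hσdu (by rw [← e]; simp)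
  -- the element
  have hτ₁ : swap w u * swap c (σ c) ∈ M := hmem w c hmw hcm
  have hτ₂ : swap w v * swap (h d) (h (σ d)) ∈ M := by
    have h1 := M.mul_mem (M.mul_mem hhM (hmem x₁ d hmx₁ hdm)) (M.inv_mem hhM)
    have h2' : h * (swap x₁ (σ x₁) * swap d (σ d)) * h⁻¹ =
        swap w v * swap (h d) (h (σ d)) := by
      have e1 := conj_swap h x₁ (σ x₁)
      have e2 := conj_swap h d (σ d)
      rw [hx₁w'] at e1
      rw [← e1, ← e2]
      group
    rwa [h2'] at h1
  have hf := M.mul_mem hτ₁ hτ₂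
  have hfw : (swap w u * swap c (σ c) * (swap w v * swap (h d) (h (σ d)))) w = v := by
    simp only [Perm.mul_apply]
    rw [swap_apply_of_ne_of_ne e₁w.symm e₂w.symm, swap_apply_left,
      swap_apply_of_ne_of_ne (Ne.symm hcv) hσcv.symm, swap_apply_of_ne_of_ne hvw hvu]
  have hfv : (swap w u * swap c (σ c) * (swap w v * swap (h d) (h (σ d)))) v = u := by
    simp only [Perm.mul_apply]
    rw [swap_apply_of_ne_of_ne e₁v.symm e₂v.symm, swap_apply_right,
      swap_apply_of_ne_of_ne (Ne.symm hcw) hσcw.symm, swap_apply_left]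
  have hfu : (swap w u * swap c (σ c) * (swap w v * swap (h d) (h (σ d)))) u = w := by
    simp only [Perm.mul_apply]
    rw [swap_apply_of_ne_of_ne e₁u.symm e₂u.symm, swap_apply_of_ne_of_ne huw.symm hvu.symm,
      swap_apply_of_ne_of_ne (Ne.symm hcu) hσcu.symm, swap_apply_right]
  exact h3 (hM.mem_of_dvd_orderOf hf Nat.prime_three
    (three_dvd_orderOf_of_cycle hfw hfv hfu hwv huw))

/-- The primitive case in degree `5`, with `2 ∈ π`, `3 ∉ π`. -/
theorem AH.caseC_five (hM : AH π M) (hprim : IsPreprimitive M α) (h2 : 2 ∈ π) (h3 : 3 ∉ π)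
    (h5 : Fintype.card α = 5) : False := by
  have htr : ∀ x y : α, ∃ m ∈ M, m x = y := by
    intro x y
    obtain ⟨m, hm⟩ := hprim.toIsPretransitive.exists_smul_eq x y
    exact ⟨m.1, m.2, hm⟩
  haveI : Nonempty α := Fintype.card_pos_iff.mp (by omega)
  have h5π : 5 ∈ π := hM.pi 5 (by norm_num) (h5 ▸ card_dvd_of_transitive inferInstance htr)
  haveI : Nontrivial α := Fintype.one_lt_card_iff_nontrivial.mp (by omega)
  have hcardG : Nat.card (alternatingGroup α) = 60 := by
    have h1 := two_mul_card_alternatingGroup (α := α)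
    rw [Fintype.card_perm, h5] at h1
    rw [Nat.card_eq_fintype_card]
    have : Nat.factorial 5 = 120 := rfl
    omega
  set H : Subgroup (alternatingGroup α) := M.subgroupOf (alternatingGroup α) with hH
  have hmul : H.index * Nat.card M = 60 := by
    have h1 := H.index_mul_card
    rw [Nat.card_congr (Subgroup.subgroupOfEquivOfLe hM.le).toEquiv, hcardG] at h1
    exact h1
  have h2i : ¬ 2 ∣ H.index := hM.idx 2 Nat.prime_two h2
  have h5i : ¬ 5 ∣ H.index := hM.idx 5 (by norm_num) h5π
  have hcop : Nat.Coprime H.index 20 := by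
    have h1 : Nat.Coprime H.index (2 ^ 2 * 5) := by
      apply Nat.Coprime.mul_right
      · exact Nat.Coprime.pow_right 2 ((Nat.Prime.coprime_iff_not_dvd Nat.prime_two).2 h2i).symm
      · exact ((Nat.Prime.coprime_iff_not_dvd (by norm_num)).2 h5i).symm
    simpa using h1
  have hd : H.index ∣ 3 := by
    apply hcop.dvd_of_dvd_mul_left
    exact ⟨Nat.card M, by rw [hmul]⟩
  rcases (Nat.dvd_prime Nat.prime_three).1 hd with hi | hi
  · have hle : alternatingGroup α ≤ M := by
      have h1 := Subgroup.index_eq_one.mp hi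
      rw [hH, Subgroup.subgroupOf_eq_top] at h1
      exact h1
    exact hM.alt_not_le (by omega) ⟨3, Nat.prime_three, by omega, h3⟩ hle
  · haveI : IsSimpleGroup (alternatingGroup α) :=
      alternatingGroup.isSimpleGroup (by rw [Nat.card_eq_fintype_card]; omega)
    rcases IsSimpleGroup.eq_bot_or_eq_top_of_normal H.normalCore H.normalCore_normal with hc | hc
    · have hinj : Function.Injective (MulAction.toPermHom (alternatingGroup α)
          (alternatingGroup α ⧸ H)) := by
        rw [← MonoidHom.ker_eq_bot_iff, ← Subgroup.normalCore_eq_ker, hc]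
      have h1 := Subgroup.card_dvd_of_injective _ hinj
      rw [Nat.card_perm, hcardG] at h1
      have h2' : Nat.card (alternatingGroup α ⧸ H) = 3 := hi
      rw [h2'] at h1
      revert h1
      decide
    · have h1 : H = ⊤ := by
        rw [eq_top_iff, ← hc]
        exact Subgroup.normalCore_le H
      rw [h1, Subgroup.index_top] at hi
      omega

/-- The primitive case. -/
theorem AH.caseC (hM : AH π M) (hprim : IsPreprimitive M α) (h5 : 5 ≤ Fintype.card α)
    (hT : Two (Fintype.card α) π) (hN : Non (Fintype.card α) π) : False := by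
  by_cases h3 : 3 ∈ π
  · exact hM.caseC_three hprim h3 (by omega) hN
  by_cases h2 : 2 ∈ π
  · rcases eq_or_lt_of_le h5 with h | h
    · exact hM.caseC_five hprim h2 h3 h.symm
    · exact hM.caseC_even hprim h2 h3 h
  · exact hM.caseC_odd hprim h2 (by omega) hT

end Cfsg.Agent.Lib.Perm.HallAlt
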