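import Mathlib
import Cfsg.Agent.Lib.Perm.HallAlt.CaseC

/-!
# Classification of the Hall subgroups of alternating groups

`classify`: a Hall `π`-subgroup `M` of `A(α)`, where two primes of `π` and a prime outside `π` are at
most `|α|`, is of one of the three shapes `Struct π M`.
-/

namespace Cfsg.Agent.Lib.Perm.HallAlt

open Equiv Equiv.Perm MulAction
open scoped Pointwise

universe u

theorem five_le_of_two_non {n : ℕ} {π : Set ℕ} (hT : Two n π) (hN : Non n π) : 5 ≤ n := by
  by_contra hlt
  have key : ∀ q : ℕ, q.Prime → q ≤ n → q = 2 ∨ q = 3 := by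
    intro q hq hqn
    have hq4 : q ≤ 4 := by omega
    interval_cases q
    · norm_num at hq
    · norm_num at hq
    · exact Or.inl rfl
    · exact Or.inr rfl
    · norm_num at hq
  obtain ⟨r, s, hr, hs, hne, hrπ, hsπ, hrn, hsn⟩ := hT
  obtain ⟨t, ht, htn, htπ⟩ := hN
  rcases key r hr hrn with rfl | rfl <;> rcases key s hs hsn with rfl | rfl <;>
    rcases key t ht htn with rfl | rfl <;> simp_all

theorem card_coe_set {α : Type u} [Fintype α] (Γ : Set α) :
    Fintype.card Γ = Γ.ncard := by
  rw [← Nat.card_eq_fintype_card, Nat.card_coe_set_eq]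

/-- The classification. -/
theorem classify (π : Set ℕ) : ∀ (n : ℕ) (α : Type u) [Fintype α] [DecidableEq α],
    Fintype.card α = n → ∀ M : Subgroup (Perm α), AH π M → Two n π → Non n π → Struct π M := by
  intro n
  induction n using Nat.strong_induction_on with
  | _ n ih =>
    intro α _ _ hn M hM hT hN
    have h5 := five_le_of_two_non hT hN
    subst hn
    -- the induction hypothesis for subsets
    have IH : ∀ Γ : Set α, Γ.ncard < Fintype.card α → ∀ K : Subgroup (Perm Γ), AH π K →
        Two Γ.ncard π → Non Γ.ncard π → Shape Γ.ncard π := by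
      intro Γ hΓ K hK h1 h2
      have := ih Γ.ncard hΓ Γ (card_coe_set Γ) K hK h1 h2
      have h3 := Struct.shape this
      rwa [card_coe_set] at h3
    by_cases htr : ∀ x y : α, ∃ m ∈ M, m x = y
    · by_cases hprim : IsPreprimitive M α
      · exact (hM.caseC hprim h5 hT hN).elim
      · -- a non trivial block
        haveI hpt : IsPretransitive M α := ⟨fun x y => by
          obtain ⟨m, hm, hxy⟩ := htr x y
          exact ⟨⟨m, hm⟩, hxy⟩⟩
        have hex : ∃ B : Set α, IsBlock M B ∧ ¬ IsTrivialBlock B := by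
          by_contra hcon
          push Not at hcon
          exact hprim ⟨fun hB => hcon _ hB⟩
        obtain ⟨B, hB, hBt⟩ := hex
        rw [IsTrivialBlock, not_or] at hBt
        have hk2 : 2 ≤ B.ncard := by
          by_contra hlt
          exact hBt.1 (Set.ncard_le_one_iff_subsingleton.mp (by omega))
        have hkn : B.ncard < Fintype.card α := by
          have h1 := ncard_add_compl B
          have h2 : Bᶜ.Nonempty := Set.nonempty_compl.mpr hBt.2
          have h3 := (Set.ncard_pos).2 h2
          omega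
        exact hM.caseB htr hB hk2 hkn h5 hT (IH B hkn)
    · push Not at htr
      obtain ⟨x, y, hxy⟩ := htr
      set Δ₀ : Set α := {z | ∃ m ∈ M, m x = z} with hΔ₀
      have hx : x ∈ Δ₀ := ⟨1, M.one_mem, rfl⟩
      have hy : y ∉ Δ₀ := fun ⟨m, hm, h⟩ => hxy m hm h
      have hinv : M ≤ setStab Δ₀ := by
        intro g hg z
        constructor
        · rintro ⟨m, hm, hmz⟩
          refine ⟨g⁻¹ * m, M.mul_mem (M.inv_mem hg) hm, ?_⟩
          rw [Perm.mul_apply, hmz]
          simp
        · rintro ⟨m, hm, rfl⟩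
          exact ⟨g * m, M.mul_mem hg hm, rfl⟩
      have h1 : 1 ≤ Δ₀.ncard := (Set.ncard_pos).2 ⟨x, hx⟩
      have h2 : 1 ≤ Δ₀ᶜ.ncard := (Set.ncard_pos).2 ⟨y, hy⟩
      have hsum := ncard_add_compl Δ₀
      by_cases hle : Δ₀.ncard ≤ Δ₀ᶜ.ncard
      · exact hM.caseA hinv h1 hle (by omega) hT hN (IH _ (by omega))
      · have hcc : Δ₀ᶜᶜ = Δ₀ := compl_compl _
        refine hM.caseA (Δ := Δ₀ᶜ) (by rw [setStab_compl]; exact hinv) h2 (by rw [hcc]; omega)
          (by omega) hT hN (IH _ (by rw [hcc]; omega))

end Cfsg.Agent.Lib.Perm.HallAlt
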