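import Mathlib
import Cfsg.Prelude.Def_OddOrderLocal
import Cfsg.Agent.Lib.Perm.HallAlt.Classify

/-!
# Hall subgroups of symmetric groups: the three standard shapes

* `index_setStab`: the index of a set stabilizer in `Sym(α)`.
* `partStab`: the stabilizer of a partition into two parts.
* `hall_point`, `hall_three`, `hall_part`: the stabilizers are Hall subgroups.
* `AH.of_hall`: the even part of a Hall subgroup is a Hall subgroup.
-/

namespace Cfsg.Agent.Lib.Perm.HallAlt

open Equiv Equiv.Perm MulAction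
open scoped Pointwise

variable {α : Type*} [Fintype α] [DecidableEq α]
variable {π : Set ℕ}

theorem sup_alt_eq_top {S : Subgroup (Perm α)} {s : Perm α} (hs : s ∈ S) (hodd : sign s = -1) :
    S ⊔ alternatingGroup α = ⊤ := by
  rw [eq_top_iff]
  intro g _
  by_cases hg : sign g = 1
  · exact Subgroup.mem_sup_right (mem_alternatingGroup.mpr hg)
  · have hg' : sign g = -1 := (Int.units_eq_one_or _).resolve_left hg
    have h1 : s⁻¹ * g ∈ alternatingGroup α := by
      rw [mem_alternatingGroup, Perm.sign_mul, sign_inv, hodd, hg']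
      rfl
    have h2 : g = s * (s⁻¹ * g) := by group
    rw [h2]
    exact Subgroup.mul_mem_sup hs h1

theorem relIndex_alt_of_odd {S : Subgroup (Perm α)} {s : Perm α} (hs : s ∈ S) (hodd : sign s = -1) :
    S.relIndex (alternatingGroup α) = S.index := by
  rw [← relIndex_sup_eq, sup_alt_eq_top hs hodd, Subgroup.relIndex_top_right]

theorem exists_swap_mem_setStab (Γ : Set α) (h3 : 3 ≤ Fintype.card α) :
    ∃ x y : α, x ≠ y ∧ swap x y ∈ setStab Γ := by
  obtain ⟨a, b, c, hab, hac, hbc⟩ := Fintype.two_lt_card_iff.mp (by omega : 2 < Fintype.card α)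
  have key : ∀ x y : α, x ≠ y → (x ∈ Γ ↔ y ∈ Γ) → swap x y ∈ setStab Γ := by
    intro x y _ hxy z
    rcases eq_or_ne z x with rfl | hzx
    · rw [swap_apply_left]; exact hxy.symm
    · rcases eq_or_ne z y with rfl | hzy
      · rw [swap_apply_right]; exact hxy
      · rw [swap_apply_of_ne_of_ne hzx hzy]
  by_cases ha : a ∈ Γ <;> by_cases hb : b ∈ Γ <;> by_cases hc : c ∈ Γ
  · exact ⟨a, b, hab, key a b hab (by simp [ha, hb])⟩
  · exact ⟨a, b, hab, key a b hab (by simp [ha, hb])⟩
  · exact ⟨a, c, hac, key a c hac (by simp [ha, hc])⟩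
  · exact ⟨b, c, hbc, key b c hbc (by simp [hb, hc])⟩
  · exact ⟨b, c, hbc, key b c hbc (by simp [hb, hc])⟩
  · exact ⟨a, c, hac, key a c hac (by simp [ha, hc])⟩
  · exact ⟨a, b, hab, key a b hab (by simp [ha, hb])⟩
  · exact ⟨a, b, hab, key a b hab (by simp [ha, hb])⟩

/-- The index of a set stabilizer. -/
theorem index_setStab (Γ : Set α) (h3 : 3 ≤ Fintype.card α) :
    (setStab Γ).index = (Fintype.card α).choose Γ.ncard := by
  obtain ⟨x, y, hxy, hs⟩ := exists_swap_mem_setStab Γ h3
  rw [← relIndex_alt_of_odd hs (sign_swap hxy), ← relIndex_W Γ h3]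
  exact (Subgroup.inf_relIndex_right _ _).symm

theorem card_mul_index_perm (S : Subgroup (Perm α)) :
    S.index * Nat.card S = (Fintype.card α).factorial := by
  rw [Subgroup.index_mul_card, Nat.card_perm, Nat.card_eq_fintype_card]

/-- The alternating group is transitive on sets of given size. -/
theorem exists_alt_map (h3 : 3 ≤ Fintype.card α) (Γ Γ' : Set α) (h : Γ.ncard = Γ'.ncard) :
    ∃ g ∈ alternatingGroup α, ∀ x, g x ∈ Γ' ↔ x ∈ Γ := by
  classical
  set k := Γ.ncard with hk
  haveI : IsPretransitive (alternatingGroup α) (Set.powersetCard α k) :=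
    Set.powersetCard.isPretransitive_alternatingGroup (by rwa [Nat.card_eq_fintype_card])
  let s : Set.powersetCard α k := ⟨Γ.toFinset, by
    rw [Set.powersetCard.mem_iff, ← Set.ncard_eq_toFinset_card']⟩
  let t : Set.powersetCard α k := ⟨Γ'.toFinset, by
    rw [Set.powersetCard.mem_iff, ← Set.ncard_eq_toFinset_card', ← h]⟩
  obtain ⟨g, hg⟩ := exists_smul_eq (alternatingGroup α) s t
  refine ⟨g.1, g.2, fun x => ?_⟩
  have h0 : ((g • s : Set.powersetCard α k) : Finset α) = g • (s : Finset α) :=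
    Set.powersetCard.coe_smul
  have h2 : g • (s : Finset α) = (t : Finset α) := by rw [← h0, hg]
  constructor
  · intro hx
    have h3 : (g.1 x) ∈ (g • (s : Finset α)) := by
      rw [h2]
      simpa [t] using hx
    rw [Finset.mem_smul_finset] at h3
    obtain ⟨y, hy, hxy⟩ := h3
    have : y = x := g.1.injective hxy
    subst this
    simpa [s] using hy
  · intro hx
    have h3 : (g.1 x) ∈ (g • (s : Finset α)) :=
      Finset.mem_smul_finset.mpr ⟨x, by simpa [s] using hx, rfl⟩
    rw [h2] at h3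
    simpa [t] using h3

/-- The stabilizer of the partition `Δ | Δᶜ`. -/
def partStab (Δ : Set α) : Subgroup (Perm α) where
  carrier := {g | (∀ x, g x ∈ Δ ↔ x ∈ Δ) ∨ (∀ x, g x ∈ Δ ↔ x ∉ Δ)}
  one_mem' := Or.inl fun _ => Iff.rfl
  mul_mem' := by
    rintro a b (ha | ha) (hb | hb)
    · exact Or.inl fun x => (ha _).trans (hb x)
    · exact Or.inr fun x => (ha _).trans (hb x)
    · exact Or.inr fun x => (ha _).trans (not_congr (hb x))
    · exact Or.inl fun x => (ha _).trans (by rw [hb x]; tauto)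
  inv_mem' := by
    rintro a (ha | ha)
    · left
      intro x
      have := ha (a⁻¹ x)
      have h2 : a (a⁻¹ x) = x := by simp
      rw [h2] at this
      exact this.symm
    · right
      intro x
      have := ha (a⁻¹ x)
      have h2 : a (a⁻¹ x) = x := by simp
      rw [h2] at this
      rw [this]
      tauto

theorem mem_partStab {Δ : Set α} {g : Perm α} :
    g ∈ partStab Δ ↔ (∀ x, g x ∈ Δ ↔ x ∈ Δ) ∨ (∀ x, g x ∈ Δ ↔ x ∉ Δ) := Iff.rfl

theorem setStab_le_partStab (Δ : Set α) : setStab Δ ≤ partStab Δ := fun _ h => Or.inl h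

/-- The stabilizer of a partition contains the stabilizer of a part with index `2`. -/
theorem relIndex_setStab_partStab (Δ : Set α) (h3 : 3 ≤ Fintype.card α)
    (hc : Δ.ncard = Δᶜ.ncard) (hne : Δ.Nonempty) :
    (setStab Δ).relIndex (partStab Δ) = 2 := by
  obtain ⟨a, _, ha⟩ := exists_alt_map h3 Δ Δᶜ hc
  have ha' : ∀ x, a x ∈ Δ ↔ x ∉ Δ := by
    intro x
    have := ha x
    rw [Set.mem_compl_iff] at this
    tauto
  rw [Subgroup.relIndex_eq_two_iff]
  refine ⟨a, Or.inr ha', fun b hb => ?_⟩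
  rcases hb with hb | hb
  · right
    refine ⟨hb, fun hmem => ?_⟩
    obtain ⟨x, hx⟩ := hne
    have h1 := hmem x
    rw [Perm.mul_apply, hb, ha'] at h1
    tauto
  · left
    refine ⟨fun x => ?_, fun hmem => ?_⟩
    · rw [Perm.mul_apply, hb, ha']
      tauto
    · obtain ⟨x, hx⟩ := hne
      have h1 := hmem x
      have h2 := hb x
      tauto

theorem index_partStab (Δ : Set α) (h3 : 3 ≤ Fintype.card α) (hc : Δ.ncard = Δᶜ.ncard)
    (hne : Δ.Nonempty) : 2 * (partStab Δ).index = (Fintype.card α).choose Δ.ncard := by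
  have h1 := Subgroup.relIndex_mul_index (setStab_le_partStab Δ)
  rw [relIndex_setStab_partStab Δ h3 hc hne, index_setStab Δ h3] at h1
  exact h1

/-- The stabilizer of a point is a Hall subgroup. -/
theorem hall_point (hn : (Fintype.card α).Prime) (h3 : 3 ≤ Fintype.card α)
    (hr : ∀ r : ℕ, r.Prime → r ≤ Fintype.card α → (r ∈ π ↔ r < Fintype.card α)) (x : α) :
    Cfsg.IsPiHall π (setStab ({x} : Set α)) := by
  have hi : (setStab ({x} : Set α)).index = Fintype.card α := by
    rw [index_setStab _ h3, Set.ncard_singleton, Nat.choose_one_right]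
  have hc := card_mul_index_perm (setStab ({x} : Set α))
  rw [hi] at hc
  obtain ⟨n', hn'⟩ : ∃ n', Fintype.card α = n' + 1 := ⟨Fintype.card α - 1, by have := hn.pos; omega⟩
  rw [hn', Nat.factorial_succ] at hc
  have hc' := Nat.eq_of_mul_eq_mul_left (by omega) hc
  constructor
  · intro p hp hd
    rw [hc'] at hd
    have := (Nat.Prime.dvd_factorial hp).1 hd
    exact (hr p hp (by omega)).2 (by omega)
  · intro p hp hπ hd
    rw [hi] at hd
    have hpe : p = Fintype.card α := (Nat.prime_dvd_prime_iff_eq hp hn).1 hd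
    have := (hr p hp (by omega)).1 hπ
    omega

/-- Primes dividing `144` or `1152`. -/
theorem prime_dvd_two_three {p a b : ℕ} (hp : p.Prime) (hd : p ∣ 2 ^ a * 3 ^ b) : p = 2 ∨ p = 3 := by
  rcases (Nat.Prime.dvd_mul hp).1 hd with h | h
  · exact Or.inl ((Nat.prime_dvd_prime_iff_eq hp Nat.prime_two).1 (hp.dvd_of_dvd_pow h))
  · exact Or.inr ((Nat.prime_dvd_prime_iff_eq hp Nat.prime_three).1 (hp.dvd_of_dvd_pow h))

theorem prime_dvd_thirty_five {p : ℕ} (hp : p.Prime) (hd : p ∣ 35) : p = 5 ∨ p = 7 := by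
  have h : p ∣ 5 * 7 := hd
  rcases (Nat.Prime.dvd_mul hp).1 h with h | h
  · exact Or.inl ((Nat.prime_dvd_prime_iff_eq hp (by norm_num)).1 h)
  · exact Or.inr ((Nat.prime_dvd_prime_iff_eq hp (by norm_num)).1 h)

/-- The stabilizer of a `3`-set in degree `7` is a Hall subgroup. -/
theorem hall_three (h7 : Fintype.card α = 7)
    (hr : ∀ r : ℕ, r.Prime → r ≤ Fintype.card α → (r ∈ π ↔ (r = 2 ∨ r = 3)))
    {Δ : Set α} (hΔ : Δ.ncard = 3) : Cfsg.IsPiHall π (setStab Δ) := by
  have hi : (setStab Δ).index = 35 := by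
    rw [index_setStab _ (by omega), hΔ, h7]
    decide
  have hc := card_mul_index_perm (setStab Δ)
  rw [hi, h7] at hc
  have hc' : Nat.card (setStab Δ) = 2 ^ 4 * 3 ^ 2 := by
    have : Nat.factorial 7 = 5040 := rfl
    omega
  constructor
  · intro p hp hd
    rw [hc'] at hd
    have h1 := prime_dvd_two_three hp hd
    exact (hr p hp (by rcases h1 with rfl | rfl <;> omega)).2 h1
  · intro p hp hπ hd
    rw [hi] at hd
    have h1 := prime_dvd_thirty_five hp hd
    have h2 := (hr p hp (by rcases h1 with rfl | rfl <;> omega)).1 hπ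
    omega

/-- The stabilizer of a `4|4`-partition in degree `8` is a Hall subgroup. -/
theorem hall_part (h8 : Fintype.card α = 8)
    (hr : ∀ r : ℕ, r.Prime → r ≤ Fintype.card α → (r ∈ π ↔ (r = 2 ∨ r = 3)))
    {Δ : Set α} (hΔ : Δ.ncard = 4) : Cfsg.IsPiHall π (partStab Δ) := by
  have hs := ncard_add_compl Δ
  have hi : (partStab Δ).index = 35 := by
    have h1 := index_partStab Δ (by omega) (by omega) ((Set.ncard_pos).1 (by omega))
    rw [hΔ, h8] at h1
    have : Nat.choose 8 4 = 70 := by decide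
    omega
  have hc := card_mul_index_perm (partStab Δ)
  rw [hi, h8] at hc
  have hc' : Nat.card (partStab Δ) = 2 ^ 7 * 3 ^ 2 := by
    have : Nat.factorial 8 = 40320 := rfl
    omega
  constructor
  · intro p hp hd
    rw [hc'] at hd
    have h1 := prime_dvd_two_three hp hd
    exact (hr p hp (by rcases h1 with rfl | rfl <;> omega)).2 h1
  · intro p hp hπ hd
    rw [hi] at hd
    have h1 := prime_dvd_thirty_five hp hd
    have h2 := (hr p hp (by rcases h1 with rfl | rfl <;> omega)).1 hπ
    omega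

/-- The even part of a Hall subgroup of the symmetric group is a Hall subgroup. -/
theorem AH.of_hall {H : Subgroup (Perm α)} (hH : Cfsg.IsPiHall π H) :
    AH π (H ⊓ alternatingGroup α) := by
  refine ⟨inf_le_right, fun p hp hd => hH.1 p hp (hd.trans (Subgroup.card_dvd_of_le inf_le_left)),
    fun p hp hπ hd => hH.2 p hp hπ ?_⟩
  rw [Subgroup.inf_relIndex_right] at hd
  refine hd.trans ?_
  rw [← Subgroup.relIndex_top_right]
  exact relIndex_dvd_of_normal le_top le_top

/-- Existence of a subset of given size. -/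
theorem exists_set_ncard {k : ℕ} (hk : k ≤ Fintype.card α) : ∃ Δ : Set α, Δ.ncard = k := by
  obtain ⟨s, hs⟩ := Finset.exists_subset_card_eq (s := Finset.univ (α := α)) (n := k)
    (by rwa [Finset.card_univ])
  exact ⟨s, by rw [Set.ncard_coe_finset]; exact hs.2⟩

/-- Existence of Hall subgroups of the symmetric group in the three shapes. -/
theorem exists_hall_of_shape {n : ℕ} (hn : Fintype.card α = n) (h3 : 3 ≤ n) (h : Shape n π) :
    ∃ H : Subgroup (Perm α), Cfsg.IsPiHall π H := by
  subst hn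
  rcases h with ⟨h1, h2⟩ | ⟨h1 | h1, h2⟩
  · haveI : Nonempty α := Fintype.card_pos_iff.mp (by omega)
    exact ⟨_, hall_point h1 h3 h2 (Classical.arbitrary α)⟩
  · obtain ⟨Δ, hΔ⟩ := exists_set_ncard (α := α) (k := 3) (by omega)
    exact ⟨_, hall_three h1 h2 hΔ⟩
  · obtain ⟨Δ, hΔ⟩ := exists_set_ncard (α := α) (k := 4) (by omega)
    exact ⟨_, hall_part h1 h2 hΔ⟩

end Cfsg.Agent.Lib.Perm.HallAlt
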